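import Cfsg.Agent.SimFusion.Involution
import Cfsg.Agent.Classical.SimQuot

/-!
The inner classes inside the inner-diagonal class of an involution of negative sign induced by a
similarity.
-/

set_option autoImplicit false
set_option linter.all false

namespace Cfsg.Agent.SimFusion

open Module QuadraticMap
open scoped Matrix MatrixGroups

open Cfsg.Agent.Classical (OrthCoord simAut isoGroup_le_simGroup mem_isoGroup conjIso conjIso_apply)

universe u w

variable {F : Type u} [Field F] [Finite F] {ι : Type} [Fintype ι] [DecidableEq ι]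
variable {f : (ι → F) → F} {W : Type w} [AddCommGroup W] [Module F W] [Finite W]
  [FiniteDimensional F W]

local notation "GO" => Cfsg.Geo.quadSimilarityGroup (F := F) f
local notation "OG" => Cfsg.isometryGroup F f
local notation "inc" => Subgroup.inclusion (Classical.isoGroup_le_simGroup (f := f))

variable (D : OrthCoord f W) {n : ℕ} (hodd : Odd (Nat.card F))

theorem scal_commute (c : Fˣ) (g : GO) : Commute (D.scal c) g := by
  refine Subtype.ext (Units.ext ?_)
  show ((D.scal c).1 : Matrix ι ι F) * (g.1 : Matrix ι ι F) = (g.1 : Matrix ι ι F) * (D.scal c).1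
  rw [D.scal_val, Matrix.smul_mul, Matrix.mul_smul, one_mul, mul_one]

theorem refl_eq_smul {x y : ι → F} (hx : f x ≠ 0) (hy : f y ≠ 0) {a : F} (ha : y = a • x) :
    D.refl y hy = D.refl x hx := by
  refine Subtype.ext (Units.ext (Matrix.ext_iff_mulVec.mpr fun v => ?_))
  rw [D.refl_mulVec, D.refl_mulVec]
  subst ha
  have ha0 : a ≠ 0 := by rintro rfl; rw [D.f_smul] at hy; simp at hy
  have hp : polar f (a • x) v = a * polar f x v := by
    rw [show f = (⇑D.Qf : _ → F) from (funext D.hQf).symm, polar_smul_left, smul_eq_mul]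
  rw [D.f_smul, hp, smul_smul]
  congr 2
  field_simp

theorem refl_commute {x y : ι → F} (hx : f x ≠ 0) (hy : f y ≠ 0) (hxy : polar f x y = 0) :
    Commute (D.refl x hx) (D.refl y hy) := by
  refine Subtype.ext (Units.ext (Matrix.ext_iff_mulVec.mpr fun v => ?_))
  simp only [Subgroup.coe_mul, Units.val_mul, ← Matrix.mulVec_mulVec, D.refl_mulVec]
  have hQ : (⇑D.Qf : _ → F) = f := funext D.hQf
  have hyx : polar f y x = 0 := by rw [polar_comm]; exact hxy
  rw [← hQ] at hxy hyx ⊢
  simp only [polar_sub_right, polar_smul_right, hxy, hyx, smul_eq_mul, mul_zero, sub_zero]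
  abel

include hodd in
/-- Conjugation by a similarity of non-square multiplier and isometries of determinant minus one. -/
theorem theta_conj_neg (k : GO) (hk : ¬ IsSquare (D.mu k)) (o : OG)
    (ho : Matrix.GeneralLinearGroup.det o.1 = -1) : D.theta (conjIso k o) = -D.theta o := by
  obtain ⟨x, y, hx, hy, hxy⟩ := D.exists_z hodd
  have hk' : ¬ IsSquare (D.mu k : F) := by
    rintro ⟨t, ht⟩
    have ht0 : t ≠ 0 := by rintro rfl; exact (D.mu k).ne_zero (by rw [ht, mul_zero])
    exact hk ⟨Units.mk0 t ht0, Units.ext ht⟩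
  have hkx : f ((k.1 : Matrix ι ι F) *ᵥ x) ≠ 0 := by
    rw [D.f_mulVec]; exact mul_ne_zero (D.mu k).ne_zero hx
  have hky : f ((k.1 : Matrix ι ι F) *ᵥ y) ≠ 0 := by
    rw [D.f_mulVec]; exact mul_ne_zero (D.mu k).ne_zero hy
  set r := D.refl x hx
  set z := r * D.refl y hy
  have hzθ : D.theta z = -1 :=
    (Int.units_eq_one_or _).resolve_left fun h => hxy ((D.theta_refl_mul hodd hx hy).1 h)
  have hzθ' : D.theta (conjIso k z) = -1 := by
    rw [map_mul, D.sim_conj_refl k x hx hkx, D.sim_conj_refl k y hy hky]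
    refine (Int.units_eq_one_or _).resolve_left fun h => hxy ?_
    obtain ⟨t, ht⟩ := (D.theta_refl_mul hodd hkx hky).1 h
    rw [D.f_mulVec, D.f_mulVec] at ht
    have h0 := (D.mu k).ne_zero
    exact ⟨t / D.mu k, by field_simp; linear_combination ht⟩
  have hom : ∀ w, w ∈ Cfsg.Omega F f → D.theta (conjIso k w) = 1 := fun w hw =>
    ((D.omega_iff hodd _).1 (Classical.commRestrict (conjIso k) ⟨w, hw⟩).2).2
  have det1 : ∀ w : OG, Matrix.GeneralLinearGroup.det w.1 = 1 →
      D.theta (conjIso k w) = D.theta w := by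
    intro w hw
    rcases Int.units_eq_one_or (D.theta w) with h | h
    · rw [h, hom w ((D.omega_iff hodd w).2 ⟨hw, h⟩)]
    · have h1 := hom (w * z) ((D.omega_iff hodd _).2
        ⟨by rw [Subgroup.coe_mul, map_mul, hw, D.det_refl_mul hodd hx hy, one_mul], by
          rw [map_mul, h, hzθ]; rfl⟩)
      rw [map_mul, map_mul, hzθ'] at h1
      rw [h]
      exact (mul_left_inj (-1 : ℤˣ)).1 (h1.trans (by rfl))
  have h1 := det1 (o * r) (by rw [Subgroup.coe_mul, map_mul, ho, D.det_refl]; simp)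
  rw [map_mul, map_mul, map_mul] at h1
  have hr : D.theta (conjIso k r) = -D.theta r := by
    have hp : D.theta (r * conjIso k r) = -1 := by
      refine (Int.units_eq_one_or _).resolve_left fun h => hk' ?_
      rw [D.sim_conj_refl k x hx hkx, D.theta_refl_mul hodd hx hkx, D.f_mulVec] at h
      obtain ⟨t, ht⟩ := h
      exact ⟨t / f x, by field_simp; linear_combination ht⟩
    rw [map_mul] at hp
    rcases Int.units_eq_one_or (D.theta r) with e | e <;>
      rcases Int.units_eq_one_or (D.theta (conjIso k r)) with e' | e' <;>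
      simp [e, e'] at hp ⊢
  rw [hr] at h1
  rcases Int.units_eq_one_or (D.theta o) with e | e <;>
    rcases Int.units_eq_one_or (D.theta (conjIso k o)) with e' | e' <;>
    rcases Int.units_eq_one_or (D.theta r) with e'' | e'' <;>
    simp [e, e', e''] at h1 ⊢

include hodd in
/-- The data of an involution of negative sign. -/
theorem involution_data (hn : Fintype.card ι = 2 * n) (g : GO) (hg : D.dsign n g ≠ 1)
    (hg2 : simAut g ^ 2 = 1) :
    (∀ v, (g.1 : Matrix ι ι F) *ᵥ ((g.1 : Matrix ι ι F) *ᵥ v) = (D.mu g : F) • v) ∧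
      LinearMap.det (Matrix.toLin' (g.1 : Matrix ι ι F)) ≠ (D.mu g : F) ^ n := by
  obtain ⟨c, hc⟩ := (D.simAut_eq_one_iff_scal (g ^ 2)).1 (by rw [map_pow, hg2])
  have hdet : LinearMap.det (Matrix.toLin' (g.1 : Matrix ι ι F)) ≠ (D.mu g : F) ^ n := by
    intro h
    refine hg ?_
    show Matrix.GeneralLinearGroup.det g.1 * (D.mu g ^ n)⁻¹ = 1
    rw [mul_inv_eq_one]
    refine Units.ext ?_
    rw [Matrix.GeneralLinearGroup.val_det_apply, Units.val_pow_eq_pow_val, ← LinearMap.det_toLin']
    exact h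
  have hv : ∀ v, (g.1 : Matrix ι ι F) *ᵥ ((g.1 : Matrix ι ι F) *ᵥ v) = (c : F) • v := fun v => by
    rw [Matrix.mulVec_mulVec, ← Units.val_mul, ← Subgroup.coe_mul, ← pow_two, ← hc, D.scal_val,
      Matrix.smul_mulVec, Matrix.one_mulVec]
  have hcc : (D.mu g : F) * D.mu g = (c : F) * c := by
    rw [← Units.val_mul, ← Units.val_mul, ← map_mul, ← pow_two g, ← hc, D.mu_scal]
  rcases mul_self_eq_mul_self_iff.1 hcc with h | h
  · exact ⟨fun v => by rw [hv, h], hdet⟩
  · exact absurd (det_of_skew (Q := D.Qf) (Classical.two_ne_zero_of_odd hodd) D.bNondeg_Qf c.ne_zero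
      (fun v => by simp only [Matrix.toLin'_apply]; exact hv v)
      (fun v => by rw [D.hQf, D.hQf, Matrix.toLin'_apply, D.f_mulVec]) h
      (by rw [Module.finrank_pi, hn])) hdet

include hodd in
/-- An isometry of determinant one and sign minus one commuting with the involution. -/
theorem exists_twist_involution (hn : Fintype.card ι = 2 * n) (hn4 : 4 ≤ n) (g : GO)
    (hg : D.dsign n g ≠ 1) (hg2 : simAut g ^ 2 = 1) :
    ∃ t : OG, Commute (inc t) g ∧ Matrix.GeneralLinearGroup.det t.1 = 1 ∧ D.theta t = -1 := by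
  classical
  obtain ⟨hG, -⟩ := involution_data D hodd hn g hg hg2
  have h2 := Classical.two_ne_zero_of_odd hodd
  set M := (g.1 : Matrix ι ι F)
  set μ : F := (D.mu g : F)
  have hμ0 : μ ≠ 0 := (D.mu g).ne_zero
  have hcomm : ∀ t : OG, conjIso g t = t → Commute (inc t) g := fun t h => by
    have h' := congrArg Subtype.val h
    rw [conjIso_apply, mul_inv_eq_iff_eq_mul] at h'
    exact Subtype.ext h'.symm
  have pair : ∀ (x y : ι → F) (hx : f x ≠ 0) (hy : f y ≠ 0), ¬ IsSquare (f x * f y) →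
      conjIso g (D.refl x hx * D.refl y hy) = D.refl x hx * D.refl y hy →
      ∃ t : OG, Commute (inc t) g ∧ Matrix.GeneralLinearGroup.det t.1 = 1 ∧ D.theta t = -1 :=
    fun x y hx hy hns hfix => ⟨_, hcomm _ hfix, D.det_refl_mul hodd hx hy,
      (Int.units_eq_one_or _).resolve_left fun h => hns ((D.theta_refl_mul hodd hx hy).1 h)⟩
  have hQ : (⇑D.Qf : _ → F) = f := funext D.hQf
  by_cases hsq : IsSquare μ
  · obtain ⟨d, hd⟩ := hsq
    have hd0 : d ≠ 0 := by rintro rfl; exact hμ0 (by rw [hd, mul_zero])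
    obtain ⟨hsum, -, hP, hN⟩ := eigen_data (Q := D.Qf) (G := Matrix.toLin' M) h2 D.bNondeg_Qf hd0
      (fun v => by rw [Matrix.toLin'_apply, Matrix.toLin'_apply, ← hd]; exact hG v)
      (fun v => by rw [D.hQf, D.hQf, Matrix.toLin'_apply, D.f_mulVec, ← hd])
    obtain ⟨a, ha, S, hdim, hS, hSeig⟩ : ∃ a : F, a ≠ 0 ∧ ∃ S : Submodule F (ι → F), 2 ≤ finrank F S ∧
        (∀ x ∈ S, (∀ y ∈ S, polar D.Qf x y = 0) → x = 0) ∧ ∀ x ∈ S, M *ᵥ x = a • x := by
      rw [Module.finrank_pi, hn] at hsum
      by_cases h : 2 ≤ finrank F (LinearMap.ker (Matrix.toLin' M - d • LinearMap.id))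
      · exact ⟨d, hd0, _, h, hP, fun x hx => by simpa [sub_eq_zero] using hx⟩
      · exact ⟨-d, neg_ne_zero.2 hd0, _, by omega, hN, fun x hx => by
          simpa [add_eq_zero_iff_eq_neg] using hx⟩
    obtain ⟨ν, hν0, hν⟩ := OrthGen.exists_nonsquare F h2
    have hB : Classical.BNondeg (D.Qf.comp S.subtype) := fun x hx =>
      Subtype.ext (hS x x.2 fun y hy => by simpa [polar] using hx ⟨y, hy⟩)
    obtain ⟨x, hx⟩ := OrthGen.exists_value hB h2 hdim 1
    obtain ⟨y, hy⟩ := OrthGen.exists_value hB h2 hdim ν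
    rw [QuadraticMap.comp_apply, Submodule.subtype_apply, D.hQf] at hx hy
    refine pair x y (by rw [hx]; exact one_ne_zero) (by rw [hy]; exact hν0)
      (by rw [hx, hy, one_mul]; exact hν) ?_
    have hfix : ∀ (z : S) (hz : f z ≠ 0), conjIso g (D.refl z hz) = D.refl z hz := fun z hz => by
      have hgz : f (M *ᵥ (z : ι → F)) ≠ 0 := by rw [D.f_mulVec]; exact mul_ne_zero hμ0 hz
      rw [D.sim_conj_refl g z hz hgz]
      exact refl_eq_smul D hz hgz (hSeig z z.2)
    rw [map_mul, hfix, hfix]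
  · obtain ⟨v, hv, hvG⟩ := exists_orth_image (Q := D.Qf) (G := Matrix.toLin' M) h2 D.bNondeg_Qf hsq
      (fun v => by rw [Matrix.toLin'_apply, Matrix.toLin'_apply]; exact hG v)
      (fun v => by rw [D.hQf, D.hQf, Matrix.toLin'_apply, D.f_mulVec])
      (by rw [Module.finrank_pi, hn]; omega)
    rw [D.hQf] at hv
    rw [hQ, Matrix.toLin'_apply] at hvG
    have hgv : f (M *ᵥ v) ≠ 0 := by rw [D.f_mulVec]; exact mul_ne_zero hμ0 hv
    have hggv : f (M *ᵥ (M *ᵥ v)) ≠ 0 := by rw [D.f_mulVec]; exact mul_ne_zero hμ0 hgv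
    refine pair v (M *ᵥ v) hv hgv ?_ ?_
    · rw [D.f_mulVec]
      rintro ⟨t, ht⟩
      exact hsq ⟨t / f v, by field_simp; linear_combination ht⟩
    · rw [map_mul, D.sim_conj_refl g v hv hgv, D.sim_conj_refl g _ hgv hggv,
        refl_eq_smul D hv hggv (hG v)]
      exact (refl_commute D hv hgv hvG).eq.symm

include hodd in
/-- No similarity of non-square multiplier and sign one commutes with the involution up to a
scalar, when minus one has sign one or the half dimension is even. -/
theorem no_scale (hn : Fintype.card ι = 2 * n) (g : GO) (hg : D.dsign n g ≠ 1)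
    (hg2 : simAut g ^ 2 = 1) (hcase : D.theta D.negI = 1 ∨ Even n) (k : GO) (hk1 : D.dsign n k = 1)
    (hk2 : ¬ IsSquare (D.mu k)) (hkg : simAut (k * g * k⁻¹ * g⁻¹) = 1) : False := by
  classical
  obtain ⟨e, he⟩ := (D.simAut_eq_one_iff_scal _).1 hkg
  have hee : e * e = 1 := by
    have h := congrArg D.mu he
    rw [D.mu_scal] at h
    rw [h, map_mul, map_mul, map_mul, map_inv, map_inv, mul_comm (D.mu k) (D.mu g), mul_inv_cancel_right,
      mul_inv_cancel]
  rcases hcase with hneg | hev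
  · -- a representative of the involution with square multiplier
    obtain ⟨g', hg'1, hg'2, hg'3⟩ : ∃ g' : GO, IsSquare (D.mu g') ∧ D.dsign n g' ≠ 1 ∧
        k * g' * k⁻¹ * g'⁻¹ = k * g * k⁻¹ * g⁻¹ := by
      by_cases h : IsSquare (D.mu g)
      · exact ⟨g, h, hg, rfl⟩
      · refine ⟨g * k, by rw [map_mul]; exact D.nonsquare_mul hodd h hk2,
          by rwa [map_mul, hk1, mul_one], ?_⟩
        group
    obtain ⟨a, ha⟩ := hg'1
    have hmu : D.mu ((D.scal a)⁻¹ * g') = 1 := by rw [map_mul, map_inv, D.mu_scal, ha, inv_mul_cancel]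
    set o : OG := ⟨_, D.mem_iso_of_mu _ hmu⟩ with ho
    have hg'o : g' = D.scal a * inc o := (mul_inv_cancel_left (D.scal a) g').symm
    have hod : Matrix.GeneralLinearGroup.det o.1 = -1 := by
      rw [← D.dsign_inc (n := n)]
      refine (D.dsign_cases hn _).resolve_left fun h => hg'2 ?_
      rw [hg'o, map_mul, D.dsign_scal hn, one_mul, h]
    have hconj : inc (conjIso k o) = k * inc o * k⁻¹ := Subtype.ext (conjIso_apply k o)
    have hq : D.scal e = inc (conjIso k o * o⁻¹) := by
      rw [he, ← hg'3, map_mul, map_inv, hconj, hg'o, mul_inv_rev]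
      have hc : D.scal a * k⁻¹ = k⁻¹ * D.scal a := (scal_commute D a k⁻¹).eq
      have hc' : D.scal a * inc o = inc o * D.scal a := (scal_commute D a (inc o)).eq
      calc k * (D.scal a * inc o) * k⁻¹ * ((inc o)⁻¹ * (D.scal a)⁻¹)
          = k * (inc o * D.scal a) * k⁻¹ * ((inc o)⁻¹ * (D.scal a)⁻¹) := by rw [hc']
        _ = k * inc o * (D.scal a * k⁻¹) * ((inc o)⁻¹ * (D.scal a)⁻¹) := by group
        _ = k * inc o * k⁻¹ * (D.scal a * ((inc o)⁻¹) * (D.scal a)⁻¹) := by rw [hc]; group
        _ = k * inc o * k⁻¹ * (inc o)⁻¹ := by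
          rw [(scal_commute D a (inc o)⁻¹).eq, mul_inv_cancel_right]
    have hθ : D.theta (conjIso k o * o⁻¹) = -1 := by
      rw [map_mul, map_inv, theta_conj_neg D hodd k hk2 o hod]
      simp [Int.units_inv_eq_self, neg_mul, Int.units_mul_self]
    have he1 : e = 1 ∨ e = -1 := by
      rcases mul_self_eq_one_iff.1 (congrArg Units.val hee) with h | h
      · left; exact Units.ext h
      · right; exact Units.ext h
    rcases he1 with rfl | rfl
    · have : conjIso k o * o⁻¹ = 1 := Subgroup.inclusion_injective _ (hq.symm.trans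
        ((Subtype.ext (map_one _) : D.scal 1 = 1).trans (map_one inc).symm))
      rw [this, map_one] at hθ
      exact absurd hθ (by decide)
    · rw [← D.inc_negI] at hq
      rw [← Subgroup.inclusion_injective _ hq, hneg] at hθ
      exact absurd hθ (by decide)
  · -- even half dimension
    obtain ⟨hG, hdet⟩ := involution_data D hodd hn g hg hg2
    have h2 := Classical.two_ne_zero_of_odd hodd
    set G := Matrix.toLin' (g.1 : Matrix ι ι F)
    have hG' : ∀ v, G (G v) = (D.mu g : F) • v := fun v => by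
      simp only [G, Matrix.toLin'_apply]; exact hG v
    have hfr : finrank F (ι → F) = 2 * n := by rw [Module.finrank_pi, hn]
    by_cases hsq : IsSquare (D.mu g : F)
    · obtain ⟨d, hd⟩ := hsq
      have hd0 : d ≠ 0 := by rintro rfl; exact (D.mu g).ne_zero (by rw [hd, mul_zero])
      have hke : ∀ v, (k.1 : Matrix ι ι F) *ᵥ ((g.1 : Matrix ι ι F) *ᵥ v) =
          (e : F) • ((g.1 : Matrix ι ι F) *ᵥ ((k.1 : Matrix ι ι F) *ᵥ v)) := fun v => by
        have h : k * g = D.scal e * (g * k) := by rw [he]; group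
        rw [Matrix.mulVec_mulVec, Matrix.mulVec_mulVec, ← Units.val_mul, ← Units.val_mul, ← Subgroup.coe_mul,
          ← Subgroup.coe_mul, h, Subgroup.coe_mul, Units.val_mul, D.scal_val, Matrix.smul_mul, one_mul,
          Matrix.smul_mulVec]
      refine no_twisted_similitude (Q := D.Qf) (G := G) (n := n) h2 D.bNondeg_Qf hd0
        (fun v => by rw [← hd]; exact hG' v)
        (fun v => by rw [D.hQf, D.hQf, Matrix.toLin'_apply, D.f_mulVec, ← hd])
        (by rw [← hd]; exact hdet) hfr hev (K := Matrix.toLin' (k.1 : Matrix ι ι F))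
        (ν := (D.mu k : F)) ?_ ?_ (fun v => by rw [D.hQf, D.hQf, Matrix.toLin'_apply, D.f_mulVec])
        (mul_self_eq_one_iff.1 (congrArg Units.val hee)) (fun v => by
          simp only [G, Matrix.toLin'_apply]; exact hke v)
      · rintro ⟨t, ht⟩
        have ht0 : t ≠ 0 := by rintro rfl; exact (D.mu k).ne_zero (by rw [ht, mul_zero])
        exact hk2 ⟨Units.mk0 t ht0, Units.ext ht⟩
      · exact fun x y h => by
          simp only [Matrix.toLin'_apply] at h
          exact Matrix.mulVec_injective_iff_isUnit.2 k.1.isUnit h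
    · exact hdet (by rw [det_of_nonsquare hsq hG' hfr, hev.neg_pow])

include hodd in
/-- The number of inner classes inside an inner-diagonal class. -/
theorem split_count (hn : Fintype.card ι = 2 * n) (hn4 : 4 ≤ n) {s : GO} (hs1 : D.dsign n s = 1)
    (hs2 : ¬ IsSquare (D.mu s)) (g : GO) (hg : D.dsign n g ≠ 1) (hg2 : simAut g ^ 2 = 1) :
    (Cfsg.splitClassCount ((D.dsign n).ker.map simAut) (Cfsg.Inn (Cfsg.POmega F f)) (simAut g) = 1 ∨
      Cfsg.splitClassCount ((D.dsign n).ker.map simAut) (Cfsg.Inn (Cfsg.POmega F f)) (simAut g) = 2) ∧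
    (D.theta D.negI = 1 ∨ Even n →
      Cfsg.splitClassCount ((D.dsign n).ker.map simAut) (Cfsg.Inn (Cfsg.POmega F f)) (simAut g) = 2) := by
  classical
  obtain ⟨t, htg, htd, htθ⟩ := exists_twist_involution D hodd hn hn4 g hg hg2
  set P := (D.dsign n).ker.map simAut with hPdef
  set I := Cfsg.Inn (Cfsg.POmega F f)
  set γ := simAut g
  set S := simAut s
  have symm' : ∀ a b, Cfsg.IsConjUnder I a b → Cfsg.IsConjUnder I b a := by
    rintro a b ⟨h, hh, rfl⟩; exact ⟨h⁻¹, inv_mem hh, by group⟩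
  have trans' : ∀ a b c, Cfsg.IsConjUnder I a b → Cfsg.IsConjUnder I b c → Cfsg.IsConjUnder I a c := by
    rintro a b c ⟨h, hh, rfl⟩ ⟨h', hh', rfl⟩; exact ⟨h' * h, mul_mem hh' hh, by group⟩
  have norm' : ∀ (α : MulAut (Cfsg.POmega F f)) i, i ∈ I → α * i * α⁻¹ ∈ I := by
    rintro α _ ⟨x, rfl⟩
    refine ⟨α x, MulEquiv.ext fun y => ?_⟩
    rw [MulAut.mul_apply, MulAut.mul_apply, MulAut.conj_apply, MulAut.conj_apply, map_mul, map_mul,
      map_inv]
    simp
  -- square multiplier: the same class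
  have sq_case : ∀ h : GO, IsSquare (D.mu h) → D.dsign n h = 1 →
      Cfsg.IsConjUnder I γ (simAut h * γ * (simAut h)⁻¹) := by
    intro h hh1 hh2
    obtain ⟨a, ha⟩ := hh1
    have hmu : D.mu ((D.scal a)⁻¹ * h) = 1 := by rw [map_mul, map_inv, D.mu_scal, ha, inv_mul_cancel]
    set o : OG := ⟨_, D.mem_iso_of_mu _ hmu⟩
    have hodet : Matrix.GeneralLinearGroup.det o.1 = 1 := by
      rw [← D.dsign_inc (n := n)]
      show D.dsign n ((D.scal a)⁻¹ * h) = 1
      rw [map_mul, map_inv, D.dsign_scal hn, inv_one, one_mul, hh2]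
    have hsim : simAut (inc o) = simAut h := by
      show simAut ((D.scal a)⁻¹ * h) = _
      rw [map_mul, map_inv, D.simAut_scal, inv_one, one_mul]
    obtain ⟨e, he, heg⟩ : ∃ e : OG, simAut (inc (o * e)) ∈ I ∧ Commute (inc e) g := by
      rcases Int.units_eq_one_or (D.theta o) with h1 | h1
      · exact ⟨1, (D.mem_inn_iso_iff hodd hn _).2 ⟨by rw [mul_one]; exact hodet,
          Or.inl (by rw [mul_one]; exact h1)⟩, by rw [map_one]; exact Commute.one_left _⟩
      · exact ⟨t, (D.mem_inn_iso_iff hodd hn _).2 ⟨by rw [Subgroup.coe_mul, map_mul, hodet, htd, one_mul],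
          Or.inl (by rw [map_mul, h1, htθ]; rfl)⟩, htg⟩
    refine ⟨_, he, ?_⟩
    rw [map_mul, map_mul, hsim]
    have hc : Commute (simAut (inc e)) γ := heg.map simAut
    rw [mul_inv_rev, mul_assoc (simAut h) _ γ, hc.eq]
    group
  -- every element is in one of two classes
  have cover : ∀ y, Cfsg.IsConjUnder P γ y →
      Cfsg.IsConjUnder I γ y ∨ Cfsg.IsConjUnder I (S * γ * S⁻¹) y := by
    rintro y ⟨_, ⟨h, hh, rfl⟩, rfl⟩
    by_cases hsq : IsSquare (D.mu h)
    · exact Or.inl (sq_case h hsq hh)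
    · right
      obtain ⟨i, hi, he⟩ := sq_case (s⁻¹ * h)
        (by rw [map_mul]; exact D.nonsquare_mul hodd (by rw [map_inv, isSquare_inv]; exact hs2) hsq)
        (by rw [map_mul, map_inv, hs1, inv_one, one_mul]; exact hh)
      refine ⟨S * i * S⁻¹, norm' S i hi, ?_⟩
      calc simAut h * γ * (simAut h)⁻¹
          = S * (simAut (s⁻¹ * h) * γ * (simAut (s⁻¹ * h))⁻¹) * S⁻¹ := by
            rw [map_mul, map_inv, show simAut s = S from rfl]; group
        _ = S * (i * γ * i⁻¹) * S⁻¹ := by rw [he]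
        _ = _ := by group
  let X := {y // Cfsg.IsConjUnder P γ y}
  have h1 : Cfsg.IsConjUnder P γ γ := ⟨1, one_mem _, by group⟩
  have h2 : Cfsg.IsConjUnder P γ (S * γ * S⁻¹) := ⟨S, ⟨s, hs1, rfl⟩, rfl⟩
  let R : X → X → Prop := fun y z => Cfsg.IsConjUnder I y.1 z.1
  let φ : Bool → Quot R := fun b => if b then Quot.mk R ⟨γ, h1⟩ else Quot.mk R ⟨_, h2⟩
  have hsurj : Function.Surjective φ := by
    intro z
    induction z using Quot.ind with
    | mk y =>
      rcases cover y.1 y.2 with h | h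
      · exact ⟨true, Quot.sound h⟩
      · exact ⟨false, Quot.sound h⟩
  have hcount : Cfsg.splitClassCount P I γ = Nat.card (Quot R) := rfl
  haveI : Nonempty (Quot R) := ⟨φ true⟩
  haveI : Finite (Quot R) := Finite.of_surjective φ hsurj
  have hle := Nat.card_le_card_of_surjective φ hsurj
  rw [show Nat.card Bool = 2 by simp] at hle
  refine ⟨?_, fun hcase => ?_⟩
  · have := Nat.card_pos (α := Quot R)
    omega
  · rw [hcount, ← Nat.card_eq_of_bijective φ ⟨?_, hsurj⟩, show Nat.card Bool = 2 by simp]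
    have key : ¬ Cfsg.IsConjUnder I γ (S * γ * S⁻¹) := by
      rintro ⟨i, hi, he⟩
      rw [show I = (Classical.omegaInSim f).map simAut from Classical.inn_eq] at hi
      obtain ⟨_, ⟨o, ho, rfl⟩, rfl⟩ := hi
      have hod := ((D.omega_iff hodd o).1 ho).1
      refine no_scale D hodd hn g hg hg2 hcase ((inc o)⁻¹ * s) ?_ ?_ ?_
      · rw [map_mul, map_inv, D.dsign_inc, hod, hs1, inv_one, one_mul]
      · rwa [map_mul, map_inv, D.mu_inc, inv_one, one_mul]
      · simp only [map_mul, map_inv, mul_inv_rev, inv_inv]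
        calc (simAut (inc o))⁻¹ * S * γ * (S⁻¹ * simAut (inc o)) * γ⁻¹
            = (simAut (inc o))⁻¹ * (S * γ * S⁻¹) * simAut (inc o) * γ⁻¹ := by group
          _ = 1 := by rw [he]; group
    let P' : Quot R → Prop := Quot.lift (fun y => Cfsg.IsConjUnder I γ y.1) fun y z hyz =>
      propext ⟨fun h => trans' _ _ _ h hyz, fun h => trans' _ _ _ h (symm' _ _ hyz)⟩
    have hne : φ true ≠ φ false := fun e => key ((congrArg P' e).mp ⟨1, one_mem _, by group⟩)
    intro a b hab
    cases a <;> cases b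
    · rfl
    · exact absurd hab.symm hne
    · exact absurd hab hne
    · rfl

end Cfsg.Agent.SimFusion
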