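import Cfsg.Agent.SimFusion.Twisted
import Cfsg.Agent.PrimeSO.Classes
import Cfsg.Agent.Classical.SimQuot

/-!
Fusion of semisimple classes of odd prime order in the automorphisms induced by similarities.
-/

set_option autoImplicit false
set_option linter.all false

namespace Cfsg.Agent.SimFusion

open Module QuadraticMap
open scoped Matrix MatrixGroups

open Cfsg.Agent.Classical (OrthCoord simAut hypAdd OQ isoGroup_le_simGroup mem_isoGroup)

universe u w

variable {F : Type u} [Field F] [Fintype F] {ι : Type} [Fintype ι] [DecidableEq ι]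
variable {f : (ι → F) → F} {W : Type w} [AddCommGroup W] [Module F W]

local notation "GO" => Cfsg.Geo.quadSimilarityGroup (F := F) f
local notation "OG" => Cfsg.isometryGroup F f
local notation "inc" => Subgroup.inclusion (Classical.isoGroup_le_simGroup (f := f))

theorem isConjUnder_mono {X : Type*} [Group X] {H K : Subgroup X} (hle : H ≤ K) {x y : X}
    (h : Cfsg.IsConjUnder H x y) : Cfsg.IsConjUnder K x y := by
  obtain ⟨a, ha, e⟩ := h; exact ⟨a, hle ha, e⟩

theorem poAut_eq :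
    Cfsg.poAut F f = ((Cfsg.isometryGroup F f).subgroupOf GO).map simAut := by
  refine Classical.autSubgroupOf_eq_map _ _ fun β => ⟨?_, ?_⟩
  · rintro ⟨g, hg, h⟩
    exact ⟨⟨g, isoGroup_le_simGroup hg⟩, hg, (Classical.isInduced_iff ⟨g, _⟩ β).1 h⟩
  · rintro ⟨g, hg, h⟩
    exact ⟨g.1, hg, (Classical.isInduced_iff g β).2 h⟩

theorem ext_mulVec {g h : GL ι F} (e : ∀ v, (g : Matrix ι ι F) *ᵥ v = (h : Matrix ι ι F) *ᵥ v) :
    g = h :=
  Units.ext (Matrix.ext_iff_mulVec.mpr e)

variable (D : OrthCoord f W) [Finite W] [FiniteDimensional F W] {n : ℕ}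

theorem scal_comm (c : Fˣ) (g : GO) : Commute (D.scal c) g := by
  refine Subtype.ext (Units.ext ?_)
  show ((D.scal c).1 : Matrix ι ι F) * (g.1 : Matrix ι ι F) = (g.1 : Matrix ι ι F) * (D.scal c).1
  rw [D.scal_val, Matrix.smul_mul, Matrix.mul_smul, one_mul, mul_one]

theorem scal_mul (c d : Fˣ) : D.scal (c * d) = D.scal c * D.scal d :=
  Subtype.ext (map_mul _ c d)

theorem scal_pow (c : Fˣ) (j : ℕ) : D.scal (c ^ j) = D.scal c ^ j := by
  induction j with
  | zero => rw [pow_zero, pow_zero]; exact Subtype.ext (map_one _)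
  | succ j ih => rw [pow_succ, pow_succ, scal_mul, ih]

include D in
/-- An automorphism of odd order induced by a similarity is induced by an isometry of that order. -/
theorem exists_lift {x : MulAut (Cfsg.POmega F f)} (hx : x ∈ Cfsg.pgoAut F f) {r : ℕ} (hro : Odd r)
    (hr1 : r ≠ 1) (hxr : orderOf x = r) : ∃ X : OG, simAut (inc X) = x ∧ X ^ r = 1 ∧ X ≠ 1 := by
  rw [Classical.pgoAut_eq] at hx
  obtain ⟨g, rfl⟩ := hx
  obtain ⟨c, hc⟩ := (D.simAut_eq_one_iff_scal (g ^ r)).1 (by rw [map_pow, ← hxr, pow_orderOf_eq_one])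
  obtain ⟨j, rfl⟩ := hro
  set d : Fˣ := c * (D.mu g ^ j)⁻¹ with hd
  have hcc : c * c = D.mu g ^ (2 * j + 1) := by rw [← D.mu_scal, hc, map_pow]
  have hdd : d * d = D.mu g := by
    rw [hd, mul_mul_mul_comm, hcc, ← mul_inv, ← pow_add, ← two_mul, pow_succ]
    exact mul_inv_cancel_comm _ _
  set g' := (D.scal d)⁻¹ * g with hg'
  have hmu : D.mu g' = 1 := by rw [hg', map_mul, map_inv, D.mu_scal, hdd, inv_mul_cancel]
  have hpow : g' ^ (2 * j + 1) = D.scal ((d ^ (2 * j + 1))⁻¹ * c) := by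
    rw [hg', (scal_comm D d g).inv_left.mul_pow, inv_pow, ← scal_pow, ← hc, scal_mul]
    congr 1
  set e : Fˣ := (d ^ (2 * j + 1))⁻¹ * c
  have he : e * e = 1 := by
    rw [← D.mu_scal, ← hpow, map_pow, hmu, one_pow]
  have hepow : e ^ (2 * j + 1) = e := by
    rw [pow_succ, pow_mul, pow_two, he, one_pow, one_mul]
  have hmuX : D.mu (g' * D.scal e) = 1 := by rw [map_mul, hmu, D.mu_scal, he, mul_one]
  refine ⟨⟨(g' * D.scal e).1, D.mem_iso_of_mu _ hmuX⟩, ?_, ?_, ?_⟩
  · show simAut (g' * D.scal e) = simAut g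
    rw [map_mul, D.simAut_scal, mul_one, hg', map_mul, map_inv, D.simAut_scal, inv_one, one_mul]
  · refine Subtype.ext ?_
    have h : (g' * D.scal e) ^ (2 * j + 1) = 1 := by
      rw [((scal_comm D e g').symm).mul_pow, hpow, ← scal_pow, hepow, ← scal_mul, he]
      exact Subtype.ext (map_one _)
    have h2 := congrArg Subtype.val h
    rw [Subgroup.coe_pow] at h2 ⊢
    exact h2
  · intro h
    have h0 := congrArg Subtype.val h
    have h1 : simAut (g' * D.scal e) = 1 := by
      rw [show g' * D.scal e = 1 from Subtype.ext h0, map_one]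
    rw [map_mul, D.simAut_scal, mul_one, hg', map_mul, map_inv, D.simAut_scal, inv_one, one_mul] at h1
    rw [h1, orderOf_one] at hxr
    exact hr1 hxr.symm

variable (hodd : Odd (Nat.card F))

section Elements

variable {r p : ℕ} [Fact p.Prime] [CharP F p] (hr : r.Prime) (hr2 : r ≠ 2) (hrp : r ≠ p)
  (X : Cfsg.isometryGroup F f) (hX : X ^ r = 1) (hX1 : X ≠ 1)

include hodd hr hr2 hrp hX hX1 in
/-- A centralising element of determinant one and sign minus one. -/
theorem exists_twist : ∃ t : OG, Commute t X ∧ Matrix.GeneralLinearGroup.det t.1 = 1 ∧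
    D.theta t = -1 := by
  obtain ⟨u, ⟨hud, hun⟩, huc⟩ := exists_twisted_commute (Q := hypAdd D.Q)
    (Classical.two_ne_zero_of_odd hodd) (Classical.bNondeg_hypAdd D.nondeg) hr hr2 hrp (D.Θ X)
    (by rw [← map_pow, hX, map_one]) (fun h => hX1 (D.Θ.injective (h.trans (map_one _).symm)))
  obtain ⟨t, rfl⟩ := D.Θ.surjective u
  have hd : Matrix.GeneralLinearGroup.det t.1 = 1 := (D.det_eq_one_iff hodd t).2 hud
  refine ⟨t, D.Θ.injective ?_, hd, (Int.units_eq_one_or _).resolve_left fun h => hun ?_⟩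
  · rw [map_mul, map_mul]; exact huc
  · rw [Classical.commutator_OQ_eq D.nondeg D.pairs D.gen, ← D.mem_omega]
    exact (D.omega_iff hodd t).2 ⟨hd, h⟩

include D hr hrp hX in
/-- A fixed space that is not zero has a non-singular vector. -/
theorem exists_fixed_nonsingular {w : ι → F} (hw : w ≠ 0) (hXw : (X.1 : Matrix ι ι F) *ᵥ w = w) :
    ∃ v, f v ≠ 0 ∧ (X.1 : Matrix ι ι F) *ᵥ v = v := by
  set T : Module.End F (ι → F) := Matrix.toLin' (X.1 : Matrix ι ι F) with hT
  have hTr : T ^ r = 1 := by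
    show (Matrix.toLinAlgEquiv' (X.1 : Matrix ι ι F)) ^ r = 1
    rw [← map_pow, ← Units.val_pow_eq_pow_val, ← Subgroup.coe_pow, hX]
    exact map_one _
  obtain ⟨y, hy⟩ : ∃ y, polar D.Qf w y ≠ 0 := by
    by_contra h; push Not at h; exact hw (D.bNondeg_Qf w h)
  set v := (∑ j ∈ Finset.range r, T ^ j) y with hv
  have hTv : T v = v := by
    have h := LinearMap.congr_fun (mul_geom_sum T r) y
    rw [hTr, sub_self, LinearMap.zero_apply, Module.End.mul_apply, LinearMap.sub_apply,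
      Module.End.one_apply, sub_eq_zero] at h
    exact h
  have hp : ∀ a b, polar D.Qf (T a) (T b) = polar D.Qf a b := fun a b => by
    simp only [polar, ← map_add, D.hQf, hT, Matrix.toLin'_apply, ← Matrix.mulVec_add, mem_isoGroup.1 X.2]
  have hTw : T w = w := by rw [hT, Matrix.toLin'_apply, hXw]
  have hj : ∀ j, polar D.Qf w ((T ^ j) y) = polar D.Qf w y := fun j => by
    induction j with
    | zero => rfl
    | succ j ih => rw [pow_succ', Module.End.mul_apply, ← hTw, hp, hTw]; exact ih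
  have hwv : polar D.Qf w v ≠ 0 := by
    rw [hv, LinearMap.sum_apply, ← QuadraticMap.polarBilin_apply_apply, map_sum]
    simp only [QuadraticMap.polarBilin_apply_apply, hj, Finset.sum_const, Finset.card_range, nsmul_eq_mul]
    exact mul_ne_zero (PrimeSO.natCast_r_ne_zero (F := F) hr hrp) hy
  have hfix : ∀ z, T z = z → (X.1 : Matrix ι ι F) *ᵥ z = z := fun z hz => by
    rwa [hT, Matrix.toLin'_apply] at hz
  by_cases h1 : f w = 0
  · by_cases h3 : f v = 0
    · refine ⟨w + v, ?_, hfix _ (by rw [map_add, hTw, hTv])⟩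
      rw [← D.hQf, QuadraticMap.map_add D.Qf, D.hQf, D.hQf, h1, h3, zero_add, zero_add]
      exact hwv
    · exact ⟨v, h3, hfix _ hTv⟩
  · exact ⟨w, h1, hXw⟩

include hodd hr hr2 hrp hX hX1 in
/-- A centralising similarity of sign one whose multiplier is not a square. -/
theorem exists_scale (hn : Fintype.card ι = 2 * n) {s : GO} (hs1 : D.dsign n s = 1)
    (hs2 : ¬ IsSquare (D.mu s)) :
    ∃ c : GO, Commute c (inc X) ∧ D.dsign n c = 1 ∧ ¬ IsSquare (D.mu c) := by
  classical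
  let E := Classical.isometryGroupEquiv f D.Qf D.hQf
  let sL : (ι → F) ≃ₗ[F] (ι → F) :=
    LinearMap.GeneralLinearGroup.generalLinearEquiv F _ (Matrix.GeneralLinearGroup.toLin s.1)
  have hsL : ∀ v, sL v = (s.1 : Matrix ι ι F) *ᵥ v := fun v => rfl
  set X' : OG := Classical.conjIso s X with hX'
  have hX'v : (X'.1 : GL ι F) = s.1 * X.1 * s.1⁻¹ := Classical.conjIso_apply s X
  obtain ⟨φ, hφQ, hφ⟩ := ClassConj.exists_orthogonal_intertwiner (Q := D.Qf)
    ⟨fun a ha => D.bNondeg_Qf a ha, fun a ha => D.bNondeg_Qf a fun y => by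
      rw [polar_comm]; exact ha y⟩
    (T := (E X).1) (T' := (E X').1) (E X).2 (E X').2 (g := sL) (fun v => by
      rw [hsL, hsL]
      show (s.1 : Matrix ι ι F) *ᵥ ((X.1 : Matrix ι ι F) *ᵥ v) = (X'.1 : Matrix ι ι F) *ᵥ _
      rw [Matrix.mulVec_mulVec, Matrix.mulVec_mulVec, hX'v, ← Units.val_mul, ← Units.val_mul,
        inv_mul_cancel_right])
    (hr.odd_of_ne_two hr2) (PrimeSO.natCast_r_ne_zero (F := F) hr hrp) (fun v => by
      rw [PrimeSO.iterate_eq_of_pow]
      show ((E X).1.toLinearMap ^ r) v = v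
      rw [← pow_apply, ← map_pow, hX, map_one]; rfl)
  set o : OG := E.symm ⟨φ, hφQ⟩ with ho
  have hov : ∀ v, (o.1 : Matrix ι ι F) *ᵥ v = φ v := fun v => by
    rw [← Classical.isometryGroupEquiv_apply f D.Qf D.hQf o v]
    show ((E (E.symm ⟨φ, hφQ⟩)).1) v = φ v
    rw [MulEquiv.apply_symm_apply]
  have hoX : o * X = X' * o := Subtype.ext (ext_mulVec fun v => by
    rw [Subgroup.coe_mul, Subgroup.coe_mul, Units.val_mul, Units.val_mul, ← Matrix.mulVec_mulVec,
      ← Matrix.mulVec_mulVec, hov, hov]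
    exact hφ v)
  set c : GO := (inc o)⁻¹ * s with hc
  have hconj : inc X' = s * inc X * s⁻¹ := Subtype.ext hX'v
  have hcX : Commute c (inc X) := by
    show (inc o)⁻¹ * s * inc X = inc X * ((inc o)⁻¹ * s)
    have h : inc o * inc X = inc X' * inc o := by rw [← map_mul, ← map_mul, hoX]
    calc (inc o)⁻¹ * s * inc X = (inc o)⁻¹ * (s * inc X * s⁻¹) * s := by group
      _ = (inc o)⁻¹ * (inc X' * inc o) * (inc o)⁻¹ * s := by rw [hconj]; group
      _ = _ := by rw [← h]; group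
  have hmu : D.mu c = D.mu s := by rw [hc, map_mul, map_inv, D.mu_inc, inv_one, one_mul]
  rcases D.dsign_cases hn c with h1 | h1
  · exact ⟨c, hcX, h1, hmu ▸ hs2⟩
  -- a reflection fixed by `X` repairs the sign
  obtain ⟨w, hw, hXw⟩ : ∃ w, w ≠ 0 ∧ (X.1 : Matrix ι ι F) *ᵥ w = w := by
    by_contra hno
    push Not at hno
    refine D.neg_one_ne_one hodd (h1.symm.trans ?_)
    show Matrix.GeneralLinearGroup.det c.1 * (D.mu c ^ n)⁻¹ = 1
    rw [mul_inv_eq_one]
    refine Units.ext ?_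
    rw [Matrix.GeneralLinearGroup.val_det_apply, Units.val_pow_eq_pow_val, ← LinearMap.det_toLin']
    refine det_of_commute (Q := D.Qf) (T := (E X).1.toLinearMap) D.bNondeg_Qf (hr.odd_of_ne_two hr2)
      (LinearMap.ext fun v => by rw [← pow_apply, ← map_pow, hX, map_one]; rfl)
      (fun v hv => by_contra fun hv0 => hno v hv0 hv) (E X).2 (D.mu c).ne_zero ?_ (fun v => ?_) ?_
      (by rw [Module.finrank_pi, hn])
    · rw [LinearMap.det_toLin', ← Matrix.GeneralLinearGroup.val_det_apply]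
      exact Units.ne_zero _
    · rw [D.hQf, D.hQf, Matrix.toLin'_apply, D.f_mulVec]
    · refine LinearMap.ext fun v => ?_
      rw [Module.End.mul_apply, Module.End.mul_apply, Matrix.toLin'_apply, Matrix.toLin'_apply]
      show (c.1 : Matrix ι ι F) *ᵥ ((X.1 : Matrix ι ι F) *ᵥ v) = (X.1 : Matrix ι ι F) *ᵥ _
      rw [Matrix.mulVec_mulVec, Matrix.mulVec_mulVec, ← Units.val_mul, ← Units.val_mul]
      exact congrArg (fun g : GL ι F => (g : Matrix ι ι F) *ᵥ v) (congrArg Subtype.val hcX)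
  obtain ⟨v, hv, hXv⟩ := exists_fixed_nonsingular D hr hrp X hX hw hXw
  have hXR : Commute (inc (D.refl v hv)) (inc X) := by
    have hne : f (((inc X).1 : Matrix ι ι F) *ᵥ v) ≠ 0 := by
      show f ((X.1 : Matrix ι ι F) *ᵥ v) ≠ 0
      rwa [hXv]
    have h := congrArg Subtype.val (D.sim_conj_refl (inc X) v hv hne)
    rw [Classical.conjIso_apply] at h
    refine Subtype.ext ?_
    show (D.refl v hv).1 * X.1 = X.1 * (D.refl v hv).1
    have e : D.refl (((inc X).1 : Matrix ι ι F) *ᵥ v) hne = D.refl v hv := by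
      congr 1
    rw [e] at h
    exact (mul_inv_eq_iff_eq_mul.1 h).symm
  refine ⟨inc (D.refl v hv) * c, hXR.mul_left hcX, ?_, ?_⟩
  · rw [map_mul, h1, D.dsign_refl]; simp
  · rwa [map_mul, D.mu_inc, one_mul, hmu]

end Elements

include D hodd in
/-- The classes under the inner, special, inner-diagonal and full groups. -/
theorem class_fusion (hn : Fintype.card ι = 2 * n) {s : GO} (hs1 : D.dsign n s = 1)
    (hs2 : ¬ IsSquare (D.mu s)) {p : ℕ} [Fact p.Prime] [CharP F p] {r : ℕ} (hr : r.Prime) (hro : Odd r)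
    (hrp : r ≠ p) {x : MulAut (Cfsg.POmega F f)} (hx : x ∈ Cfsg.pgoAut F f) (hxr : orderOf x = r) :
    (∀ y, (Cfsg.IsConjUnder (Cfsg.Inn (Cfsg.POmega F f)) x y ↔
        Cfsg.IsConjUnder ((D.dsign n).ker.map simAut) x y) ∧
      (Cfsg.IsConjUnder (Cfsg.psoAut F f) x y ↔
        Cfsg.IsConjUnder ((D.dsign n).ker.map simAut) x y)) ∧
    ∀ y, Cfsg.IsConjUnder (Cfsg.poAut F f) x y ↔ Cfsg.IsConjUnder (Cfsg.pgoAut F f) x y := by
  have hr2 : r ≠ 2 := fun h => by rw [h] at hro; exact absurd hro (by decide)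
  obtain ⟨X, rfl, hX, hX1⟩ := exists_lift D hx hro hr.one_lt.ne' hxr
  obtain ⟨t, htX, htd, htθ⟩ := exists_twist D hodd hr hr2 hrp X hX hX1
  obtain ⟨c, hcX, hcd, hcm⟩ := exists_scale D hodd hr hr2 hrp X hX hX1 hn hs1 hs2
  -- multiplying by the centralising similarity makes the multiplier a square
  have step : ∀ h : GO, ∃ k : GO, IsSquare (D.mu (h * k)) ∧ D.dsign n (h * k) = D.dsign n h ∧
      Commute k (inc X) := by
    intro h
    by_cases hsq : IsSquare (D.mu h)
    · exact ⟨1, by rwa [mul_one], by rw [mul_one], Commute.one_left _⟩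
    · exact ⟨c, by rw [map_mul]; exact D.nonsquare_mul hodd hsq hcm, by rw [map_mul, hcd, mul_one], hcX⟩
  have conj : ∀ (h k : GO), Commute k (inc X) →
      simAut (h * k) * simAut (inc X) * (simAut (h * k))⁻¹ =
        simAut h * simAut (inc X) * (simAut h)⁻¹ := fun h k hk => by
    rw [← map_mul, ← map_inv, ← map_mul, ← map_mul, ← map_inv, ← map_mul]
    congr 1
    rw [mul_inv_rev, mul_assoc h k, hk.eq]
    group
  have hPI : Cfsg.psoAut F f ≤ (D.dsign n).ker.map simAut := by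
    rw [Classical.psoAut_eq]
    rintro _ ⟨g, ⟨h1, h2⟩, rfl⟩
    refine ⟨g, ?_, rfl⟩
    show D.dsign n (inc ⟨g.1, h1⟩) = 1
    rw [D.dsign_inc]; exact h2
  have key : ∀ y, Cfsg.IsConjUnder ((D.dsign n).ker.map simAut) (simAut (inc X)) y →
      Cfsg.IsConjUnder (Cfsg.Inn (Cfsg.POmega F f)) (simAut (inc X)) y := by
    rintro y ⟨_, ⟨h, hh, rfl⟩, rfl⟩
    obtain ⟨k, hk1, hk2, hkX⟩ := step h
    obtain ⟨a, ha⟩ := hk1
    have hmu : D.mu ((D.scal a)⁻¹ * (h * k)) = 1 := by rw [map_mul, map_inv, D.mu_scal, ha, inv_mul_cancel]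
    set o : OG := ⟨_, D.mem_iso_of_mu _ hmu⟩ with ho
    have hodet : Matrix.GeneralLinearGroup.det o.1 = 1 := by
      rw [← D.dsign_inc (n := n)]
      show D.dsign n ((D.scal a)⁻¹ * (h * k)) = 1
      rw [map_mul, map_inv, D.dsign_scal hn, inv_one, one_mul, hk2]
      exact hh
    have hsim : simAut (inc o) = simAut (h * k) := by
      show simAut ((D.scal a)⁻¹ * (h * k)) = _
      rw [map_mul, map_inv, D.simAut_scal, inv_one, one_mul]
    obtain ⟨e, he, heX⟩ : ∃ e : OG, simAut (inc (o * e)) ∈ Cfsg.Inn (Cfsg.POmega F f) ∧ Commute e X := by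
      rcases Int.units_eq_one_or (D.theta o) with h1 | h1
      · exact ⟨1, (D.mem_inn_iso_iff hodd hn _).2 ⟨by rw [mul_one]; exact hodet,
          Or.inl (by rw [mul_one]; exact h1)⟩, Commute.one_left _⟩
      · exact ⟨t, (D.mem_inn_iso_iff hodd hn _).2 ⟨by rw [Subgroup.coe_mul, map_mul, hodet, htd, one_mul],
          Or.inl (by rw [map_mul, h1, htθ]; rfl)⟩, htX⟩
    refine ⟨_, he, ?_⟩
    rw [map_mul, map_mul, hsim, ← map_mul (simAut (f := f)) (h * k), mul_assoc h k,
      conj h (k * inc e) (hkX.mul_left (heX.map inc))]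
  refine ⟨fun y => ⟨⟨isConjUnder_mono ((D.inn_le_pso hodd hn).trans hPI), key y⟩,
    ⟨isConjUnder_mono hPI, fun h => isConjUnder_mono (D.inn_le_pso hodd hn) (key y h)⟩⟩, fun y => ⟨?_, ?_⟩⟩
  · refine isConjUnder_mono ?_
    rw [poAut_eq, Classical.pgoAut_eq]
    exact Subgroup.map_le_range _ _
  · rw [Classical.pgoAut_eq, poAut_eq]
    rintro ⟨_, ⟨h, rfl⟩, rfl⟩
    obtain ⟨k, ⟨a, ha⟩, -, hkX⟩ := step h
    refine ⟨simAut ((D.scal a)⁻¹ * (h * k)), ⟨_, ?_, rfl⟩, ?_⟩
    · exact D.mem_iso_of_mu ((D.scal a)⁻¹ * (h * k))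
        (by rw [map_mul, map_inv, D.mu_scal, ha, inv_mul_cancel])
    · rw [map_mul, map_inv, D.simAut_scal, inv_one, one_mul, conj h k hkX]

end Cfsg.Agent.SimFusion
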