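import Cfsg.Agent.RecogA.OddTori
import Cfsg.Agent.SpecBC.OrthOrder
import Cfsg.Agent.PrimeSO.Type

/-!
An element outside the commutator subgroup commuting with an isometry of odd prime order: a torus
generator on a minimal non-degenerate invariant subspace.
-/

set_option autoImplicit false
set_option linter.all false

namespace Cfsg.Agent.SimFusion

open Polynomial Module QuadraticMap

open Cfsg.Agent.Classical (OQ BNondeg levelSign levelPerm)
open Cfsg.Agent.PrimeSO (Fac dvd_iff_aeval_root coprime_of_not_root)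

section Basic

variable {F : Type*} [Field F] {V : Type*} [AddCommGroup V] [Module F V] {Q : QuadraticForm F V}
  {T : Module.End F V} {r : ℕ}

theorem comm_apply (g h : F[X]) (v : V) : aeval T g (aeval T h v) = aeval T h (aeval T g v) := by
  rw [← Module.End.mul_apply, ← map_mul, mul_comm, map_mul, Module.End.mul_apply]

theorem mul_apply' (g h : F[X]) (v : V) : aeval T (g * h) v = aeval T g (aeval T h v) := by
  rw [map_mul, Module.End.mul_apply]

theorem eq_zero_of_coprime {g h : F[X]} (hc : IsCoprime g h) {v : V} (hg : aeval T g v = 0)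
    (hh : aeval T h v = 0) : v = 0 := by
  obtain ⟨a, b, hab⟩ := hc
  have := LinearMap.congr_fun (congrArg (aeval T) hab) v
  rw [map_add, LinearMap.add_apply, mul_apply', mul_apply', hg, hh, map_zero, map_zero, map_one,
    add_zero] at this
  exact this.symm

variable (hr : 0 < r) (hT : T ^ r = 1) (hQT : ∀ v, Q (T v) = Q v)

include hr hT hQT

theorem star_left (g : F[X]) (u v : V) :
    polar Q (aeval T g u) v = polar Q u (aeval T (g.comp (X ^ (r - 1))) v) := by
  have hBT : ∀ u v, polarBilin Q (T u) (T v) = polarBilin Q u v := fun u v => by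
    simp [polar, ← map_add, hQT]
  have h := PrimeSO.aeval_adjoint (polarBilin Q) (PrimeSO.adjoint_pow (polarBilin Q) hr hBT hT) g u v
  rw [aeval_comp, map_pow, aeval_X]
  exact h

theorem star_right (g : F[X]) (u v : V) :
    polar Q u (aeval T g v) = polar Q (aeval T (g.comp (X ^ (r - 1))) u) v := by
  rw [polar_comm, star_left hr hT hQT, polar_comm]

theorem polar_eq_zero_of_coprime {g h : F[X]} (hc : IsCoprime h (g.comp (X ^ (r - 1)))) {u v : V}
    (hu : aeval T g u = 0) (hv : aeval T h v = 0) : polar Q u v = 0 := by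
  obtain ⟨a, b, hab⟩ := hc
  have e : v = aeval T (g.comp (X ^ (r - 1))) (aeval T b v) := by
    have := LinearMap.congr_fun (congrArg (aeval T) hab) v
    rw [map_add, LinearMap.add_apply, mul_apply', hv, map_zero, zero_add, mul_comm b, mul_apply',
      map_one] at this
    exact this.symm
  rw [e, ← star_left hr hT hQT, hu, polar_zero_left]

end Basic

variable {F : Type*} [Field F] [Fintype F] {V : Type*} [AddCommGroup V] [Module F V]
  [FiniteDimensional F V] {Q : QuadraticForm F V} {T : Module.End F V} {r i : ℕ}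

/-- A non-degenerate invariant subspace carrying a semiregular isometry of even order. -/
structure Block (Q : QuadraticForm F V) (T : Module.End F V) where
  k : ℕ
  N : ℕ
  R : Submodule F V
  G : F[X]
  k_pos : 0 < k
  N_cases : N = Fintype.card F ^ k + 1 ∨ N = Fintype.card F ^ k - 1
  N_ge : 4 ≤ N
  inv : ∀ g : F[X], ∀ v ∈ R, aeval T g v ∈ R
  nondeg : ∀ v ∈ R, (∀ w ∈ R, polar Q v w = 0) → v = 0
  finrank_R : finrank F R = 2 * k
  isom : ∀ v ∈ R, Q (aeval T G v) = Q v
  semireg : ∀ j : ℕ, ∀ v ∈ R, v ≠ 0 → (((aeval T G) ^ j) v = v ↔ N ∣ j)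

/-- The block spanned by a cyclic vector with annihilator `P`. -/
theorem block_of (hr : 0 < r) (hT : T ^ r = 1) (hQT : ∀ v, Q (T v) = Q v) (h2 : (2 : F) ≠ 0)
    (P G : F[X]) (u : V) (k N : ℕ) (hk : 0 < k)
    (hN : N = Fintype.card F ^ k + 1 ∨ N = Fintype.card F ^ k - 1) (hN4 : 4 ≤ N)
    (hdeg : P.natDegree = 2 * k) (hP0 : P ≠ 0) (hPu : aeval T P u = 0)
    (hann : ∀ g : F[X], aeval T g u = 0 → P ∣ g)
    (hnd : ∀ g : F[X], (∀ h : F[X], polar Q (aeval T g u) (aeval T h u) = 0) → aeval T g u = 0)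
    (hstar : P ∣ G.comp (X ^ (r - 1)) * G - 1) (hdvd : ∀ j, N ∣ j → P ∣ G ^ j - 1)
    (hcop : ∀ j, ¬ N ∣ j → IsCoprime (G ^ j - 1) P) : Nonempty (Block Q T) := by
  let φ : F[X] →ₗ[F] V := (LinearMap.applyₗ u).comp (aeval (R := F) T).toLinearMap
  have hφ : ∀ g, φ g = aeval T g u := fun g => rfl
  have hmem : ∀ v, v ∈ LinearMap.range φ ↔ ∃ g : F[X], aeval T g u = v := fun v => Iff.rfl
  have hkill : ∀ v ∈ LinearMap.range φ, ∀ g, P ∣ g → aeval T g v = 0 := by
    rintro v hv g ⟨c, rfl⟩
    obtain ⟨h, rfl⟩ := (hmem v).1 hv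
    rw [comm_apply, mul_comm, mul_apply', hPu, map_zero, map_zero]
  refine ⟨⟨k, N, LinearMap.range φ, G, hk, hN, hN4, ?_, ?_, ?_, ?_, ?_⟩⟩
  · intro g v hv
    obtain ⟨h, rfl⟩ := (hmem v).1 hv
    exact (hmem _).2 ⟨g * h, mul_apply' g h u⟩
  · intro v hv hperp
    obtain ⟨g, rfl⟩ := (hmem v).1 hv
    exact hnd g fun h => hperp _ ((hmem _).2 ⟨h, rfl⟩)
  · let ψ : degreeLT F P.natDegree →ₗ[F] V := φ.comp (degreeLT F P.natDegree).subtype
    have hψ : LinearMap.range ψ = LinearMap.range φ := by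
      refine le_antisymm (LinearMap.range_comp_le_range _ _) ?_
      rintro _ ⟨g, rfl⟩
      refine ⟨⟨g % P, ?_⟩, ?_⟩
      · rw [mem_degreeLT]
        refine lt_of_lt_of_le (degree_mod_lt g hP0) ?_
        rw [← degree_eq_natDegree hP0]
      · show φ (g % P) = φ g
        conv_rhs => rw [← EuclideanDomain.mod_add_div g P, map_add]
        rw [hφ (P * (g / P)), mul_comm, mul_apply', hPu, map_zero, add_zero]
    have hinj : Function.Injective ψ := (injective_iff_map_eq_zero ψ).2 fun g hg =>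
      Subtype.ext (eq_zero_of_dvd_of_degree_lt (hann _ hg) (by
        rw [degree_eq_natDegree hP0]; exact mem_degreeLT.1 g.2))
    rw [← hψ, LinearMap.finrank_range_of_inj hinj, (degreeLTEquiv F P.natDegree).finrank_eq,
      Module.finrank_fin_fun, hdeg]
  · intro v hv
    have h := star_right hr hT hQT G (aeval T G v) v
    have e : aeval T (G.comp (X ^ (r - 1))) (aeval T G v) = v := by
      have := hkill v hv _ hstar
      rw [map_sub, LinearMap.sub_apply, sub_eq_zero, mul_apply', map_one] at this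
      exact this
    rw [e, polar_self, polar_self, nsmul_eq_mul, nsmul_eq_mul, Nat.cast_ofNat] at h
    exact mul_left_cancel₀ h2 h
  · intro j v hv hv0
    rw [← map_pow]
    constructor
    · intro hfix
      by_contra hj
      refine hv0 (eq_zero_of_coprime (T := T) (hcop j hj) ?_ (hkill v hv P dvd_rfl))
      rw [map_sub, LinearMap.sub_apply, hfix, map_one, Module.End.one_apply, sub_self]
    · intro hj
      have := hkill v hv _ (hdvd j hj)
      rw [map_sub, LinearMap.sub_apply, sub_eq_zero, map_one] at this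
      exact this

theorem aeval_pow_card {L : Type*} [CommRing L] [Algebra F L] (G : F[X]) (x : L) (n : ℕ) :
    aeval (x ^ (Fintype.card F ^ n)) G = (aeval x G) ^ (Fintype.card F ^ n) := by
  induction n with
  | zero => simp
  | succ n ih =>
    rw [pow_succ, pow_mul, pow_mul, ← ih, ← map_pow (aeval (x ^ _)), ← FiniteField.expand_card,
      expand_aeval]

variable {p : ℕ} [Fact p.Prime] [CharP F p]

/-- A block exists as soon as some vector moves. -/
theorem exists_block (h2 : (2 : F) ≠ 0) (hB : BNondeg Q) (hr : r.Prime) (hr2 : r ≠ 2) (hrp : r ≠ p)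
    (hT : T ^ r = 1) (hQT : ∀ v, Q (T v) = Q v) (hne : T ≠ 1) : Nonempty (Block Q T) := by
  classical
  haveI : Fact r.Prime := ⟨hr⟩
  obtain ⟨i, hi⟩ : ∃ i, i = orderOf ((Fintype.card F : ℕ) : ZMod r) := ⟨_, rfl⟩
  obtain ⟨hi0, ⟨Φ⟩⟩ := PrimeSO.exists_fac (F := F) hr hr2 hrp hi
  set q := Fintype.card F with hqdef
  have hq1 : 1 < q := Fintype.one_lt_card
  have hqodd : q % 2 = 1 := FiniteField.odd_card_of_char_ne_two fun h => h2 (by
    have := ringChar.charP F
    rw [h] at this
    exact CharTwo.two_eq_zero)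
  -- a factor with a kernel
  obtain ⟨f, hf⟩ : ∃ f : Φ.s, PrimeSO.kd T (f : F[X]) ≠ 0 := by
    by_contra hno
    push Not at hno
    have h := PrimeSO.kd_dims Φ hT
    rw [Finset.sum_eq_zero (fun f _ => hno f), add_zero, PrimeSO.kd] at h
    have htop := Submodule.eq_top_of_finrank_eq h
    refine hne (LinearMap.ext fun v => ?_)
    have hv : v ∈ LinearMap.ker (aeval T (X - 1 : F[X])) := htop ▸ Submodule.mem_top
    simpa [sub_eq_zero] using hv
  obtain ⟨v, hv, hv0⟩ := Submodule.exists_mem_ne_zero_of_ne_bot (p := LinearMap.ker (aeval T (f : F[X])))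
    fun h => hf (by rw [PrimeSO.kd, h, finrank_bot])
  rw [LinearMap.mem_ker] at hv
  set f' : F[X] := (Φ.tau f : F[X]) with hf'
  have hff' : (f : F[X]) ∣ f'.comp (X ^ (r - 1)) := by
    have := Φ.dvd_tau (Φ.tau f)
    rwa [Φ.tau_tau] at this
  -- a partner in the dual kernel
  obtain ⟨w, hw, hvw⟩ : ∃ w, aeval T f' w = 0 ∧ polar Q v w ≠ 0 := by
    obtain ⟨y, hy⟩ : ∃ y, polar Q v y ≠ 0 := by
      by_contra h; push Not at h; exact hv0 (hB v h)
    have hmem : f' ∈ insert (X - 1 : F[X]) Φ.s := Finset.mem_insert_of_mem (Φ.tau f).2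
    set P' : F[X] := ∏ g ∈ (insert (X - 1 : F[X]) Φ.s).erase f', g
    have hprod : f' * P' = X ^ r - 1 := by
      rw [← Φ.prod_eq]
      convert Finset.mul_prod_erase _ (fun g : F[X] => g) hmem
    obtain ⟨a, b, hab⟩ : IsCoprime f' P' := IsCoprime.prod_right fun g hg =>
      Φ.cop f' hmem g (Finset.mem_erase.1 hg).2 fun e => (Finset.mem_erase.1 hg).1 e.symm
    refine ⟨aeval T (b * P') y, ?_, ?_⟩
    · rw [← mul_apply', mul_left_comm, hprod, mul_apply']
      simp [hT]
    · rw [show b * P' = 1 - a * f' by linear_combination hab, map_sub, LinearMap.sub_apply, map_one,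
        Module.End.one_apply, polar_sub_right, star_right hr.pos hT hQT]
      obtain ⟨c, hc⟩ := hff'
      rw [mul_comp, hc, mul_apply', mul_comm (f : F[X]) c, mul_apply', hv, map_zero, map_zero,
        polar_zero_left, sub_zero]
      exact hy
  haveI : Fact (Irreducible (f : F[X])) := ⟨Φ.irr f⟩
  haveI : Fact (Irreducible f') := ⟨Φ.irr _⟩
  haveI : Module.Finite F (AdjoinRoot (f : F[X])) := (AdjoinRoot.powerBasis (Φ.irr f).ne_zero).finite
  haveI : Module.Finite F (AdjoinRoot f') := (AdjoinRoot.powerBasis (Φ.irr (Φ.tau f)).ne_zero).finite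
  haveI : Finite (AdjoinRoot (f : F[X])) := Module.finite_of_finite F
  set L := AdjoinRoot (f : F[X])
  set ζ := AdjoinRoot.root (f : F[X])
  have hcardL : Nat.card L = q ^ i := by
    rw [Module.natCard_eq_pow_finrank (K := F), ClassConj.finrank_adjoinRoot (Φ.irr f).ne_zero, Φ.deg f,
      Nat.card_eq_fintype_card]
  have hroot : aeval ζ (f : F[X]) = 0 := (dvd_iff_aeval_root _).1 dvd_rfl
  have hcf : ∀ g : F[X], ¬ (f : F[X]) ∣ g → IsCoprime (f : F[X]) g := fun g hg =>
    (Φ.irr f).coprime_iff_not_dvd.2 hg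
  have hζr : ζ ^ r = 1 := by
    have h := (dvd_iff_aeval_root (X ^ r - 1 : F[X])).1
      (Φ.prod_eq ▸ Finset.dvd_prod_of_mem _ (Finset.mem_insert_of_mem f.2))
    simpa [sub_eq_zero] using h
  have hζ1 : ζ ≠ 1 := fun h => by
    have h2 : (f : F[X]) ∣ X - 1 := (dvd_iff_aeval_root _).2 (by simp [← h, ζ])
    exact (Φ.irr f).not_isUnit ((Φ.cop _ (Finset.mem_insert_self _ _) f
      (Finset.mem_insert_of_mem f.2) (fun e => Φ.hX (e ▸ f.2))).isUnit_of_dvd' h2 dvd_rfl)
  rcases Nat.even_or_odd i with hev | ho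
  · -- inversion fixes the factor: a norm-one element
    have hfix : f' = (f : F[X]) := congrArg Subtype.val (Φ.tau_even hev f)
    obtain ⟨u, hu, hQu⟩ : ∃ u, aeval T (f : F[X]) u = 0 ∧ Q u ≠ 0 := by
      rw [hfix] at hw
      by_cases h1 : Q v = 0
      · by_cases h3 : Q w = 0
        · refine ⟨v + w, by rw [map_add, hv, hw, add_zero], ?_⟩
          rw [QuadraticMap.map_add Q, h1, h3, zero_add, zero_add]
          exact hvw
        · exact ⟨w, hw, h3⟩
      · exact ⟨v, hv, h1⟩
    have hu0 : u ≠ 0 := fun h => hQu (by rw [h, QuadraticMap.map_zero])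
    obtain ⟨k, rfl⟩ : ∃ k, i = 2 * k := ⟨i / 2, (Nat.two_mul_div_two_of_even hev).symm⟩
    have hk : 0 < k := by omega
    have hpos : 1 ≤ q ^ k := Nat.one_le_pow _ _ Fintype.card_pos
    obtain ⟨y, hy⟩ := RecogA.exists_orderOf_eq_of_dvd_natCard (G := Lˣ) (d := q ^ k + 1) (by
      rw [Nat.card_units, hcardL, mul_comm 2 k, pow_mul]
      exact Dvd.intro _ (Nat.sq_sub_sq (q ^ k) 1).symm |>.trans (by rw [one_pow]))
    obtain ⟨G, hG⟩ := AdjoinRoot.mk_surjective (y : L)
    have hGy : aeval ζ G = y := by rw [← hG, AdjoinRoot.aeval_eq]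
    have hexp : ζ ^ (r - 1) = ζ ^ (q ^ k) := by
      have hneg : ((q : ℕ) : ZMod r) ^ k = -1 := by
        have h3 : (((q : ℕ) : ZMod r) ^ k) ^ 2 = 1 := by
          rw [← pow_mul, mul_comm, hi, pow_orderOf_eq_one]
        refine (sq_eq_one_iff.1 h3).resolve_left fun h4 => ?_
        have h5 := orderOf_dvd_of_pow_eq_one h4
        rw [← hi] at h5
        have := Nat.le_of_dvd hk h5
        omega
      have hcast : ((q ^ k : ℕ) : ZMod r) = ((r - 1 : ℕ) : ZMod r) := by
        rw [Nat.cast_pow, hneg, Nat.cast_sub hr.one_le, ZMod.natCast_self, Nat.cast_one, zero_sub]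
      have hord : orderOf ζ = r := orderOf_eq_prime hζr hζ1
      symm
      rw [← pow_mod_orderOf, hord, (ZMod.natCast_eq_natCast_iff' _ _ _).1 hcast]
      conv_rhs => rw [← pow_mod_orderOf, hord]
    refine block_of hr.pos hT hQT h2 (f : F[X]) G u k (q ^ k + 1) hk (Or.inl rfl) ?_ (Φ.deg f)
      (Φ.irr f).ne_zero hu ?_ ?_ ?_ ?_ ?_
    · have : 3 ≤ q ^ k := le_trans (by omega) (Nat.le_self_pow hk.ne' q)
      omega
    · intro g hg
      by_contra hnd
      exact hu0 (eq_zero_of_coprime (T := T) (hcf g hnd) hu hg)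
    · intro g hg
      by_contra hne0
      obtain ⟨a, b, hab⟩ := hcf g fun ⟨c, hc⟩ => hne0 (by rw [hc, mul_comm, mul_apply', hu, map_zero])
      have hbu : aeval T b (aeval T g u) = u := by
        have := LinearMap.congr_fun (congrArg (aeval T) hab) u
        rwa [map_add, LinearMap.add_apply, mul_apply', mul_apply', hu, map_zero, zero_add, map_one] at this
      have h0 := hg (b.comp (X ^ (r - 1)))
      rw [← star_left hr.pos hT hQT, hbu, polar_self, nsmul_eq_mul, Nat.cast_ofNat] at h0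
      exact hQu ((mul_eq_zero.1 h0).resolve_left h2)
    · rw [dvd_iff_aeval_root, map_sub, map_mul, map_one, aeval_comp, map_pow, aeval_X,
        show AdjoinRoot.root (f : F[X]) = ζ from rfl, hexp, aeval_pow_card, hGy, ← pow_succ,
        ← Units.val_pow_eq_pow_val, ← hy, pow_orderOf_eq_one, Units.val_one, sub_self]
    · intro j hj
      rw [dvd_iff_aeval_root, map_sub, map_pow, map_one,
        show AdjoinRoot.root (f : F[X]) = ζ from rfl, hGy, ← Units.val_pow_eq_pow_val,
        orderOf_dvd_iff_pow_eq_one.1 (hy.symm ▸ hj), Units.val_one, sub_self]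
    · intro j hj
      refine (coprime_of_not_root (Φ.irr f) ?_).symm
      rw [map_sub, map_pow, map_one, show AdjoinRoot.root (f : F[X]) = ζ from rfl, hGy, sub_ne_zero,
        ← Units.val_pow_eq_pow_val]
      exact fun h => hj (hy ▸ orderOf_dvd_of_pow_eq_one (Units.ext h))
  · -- inversion interchanges two factors
    have hne' : f' ≠ (f : F[X]) := fun e => Φ.tau_odd ho f (Subtype.ext e)
    have hcop : IsCoprime (f : F[X]) f' := Φ.cop f (Finset.mem_insert_of_mem f.2) f'
      (Finset.mem_insert_of_mem (Φ.tau f).2) hne'.symm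
    have hQz : ∀ g : Φ.s, ∀ z, aeval T (g : F[X]) z = 0 → polar Q z z = 0 := fun g z hz =>
      polar_eq_zero_of_coprime hr.pos hT hQT (Φ.cop_tau g g fun e => Φ.tau_odd ho g e.symm) hz hz
    have hker : ∀ (g h : F[X]) z, aeval T h z = 0 → aeval T h (aeval T g z) = 0 := fun g h z hz => by
      rw [comm_apply, hz, map_zero]
    have hw0 : w ≠ 0 := fun h => hvw (by rw [h, polar_zero_right])
    have hsplit : ∀ g, aeval T g (v + w) = 0 → (f : F[X]) ∣ g ∧ f' ∣ g := by
      intro g hg
      rw [map_add] at hg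
      have h1 : aeval T g v = 0 := eq_zero_of_coprime (T := T) hcop (hker g _ v hv) (by
        rw [eq_neg_of_add_eq_zero_left hg, map_neg, hker g _ w hw, neg_zero])
      refine ⟨by_contra fun hnd => hv0 (eq_zero_of_coprime (T := T) (hcf g hnd) hv h1), ?_⟩
      rw [h1, zero_add] at hg
      exact by_contra fun hnd =>
        hw0 (eq_zero_of_coprime (T := T) ((Φ.irr (Φ.tau f)).coprime_iff_not_dvd.2 hnd) hw hg)
    set M := AdjoinRoot f'
    set η := AdjoinRoot.root f'
    obtain ⟨γ, hγ⟩ := IsCyclic.exists_ofOrder_eq_natCard (α := Lˣ)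
    rw [Nat.card_units, hcardL] at hγ
    obtain ⟨G₁, hG₁⟩ := AdjoinRoot.mk_surjective (γ : L)
    have hG₁ζ : aeval ζ G₁ = γ := by rw [← hG₁, AdjoinRoot.aeval_eq]
    have hfη : aeval (η ^ (r - 1)) (f : F[X]) = 0 := by
      have := (dvd_iff_aeval_root _).1 (Φ.dvd_tau f)
      rwa [aeval_comp, map_pow, aeval_X] at this
    have hgζ : aeval (ζ ^ (r - 1)) f' = 0 := by
      have := (dvd_iff_aeval_root _).1 hff'
      rwa [aeval_comp, map_pow, aeval_X] at this
    let σ : L →ₐ[F] M := AdjoinRoot.liftAlgHom (f : F[X]) (Algebra.ofId F M) (η ^ (r - 1)) hfη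
    let σ' : M →ₐ[F] L := AdjoinRoot.liftAlgHom f' (Algebra.ofId F L) (ζ ^ (r - 1)) hgζ
    have hσ : σ ζ = η ^ (r - 1) := AdjoinRoot.liftAlgHom_root _ _ _ hfη
    have hσ' : σ' η = ζ ^ (r - 1) := AdjoinRoot.liftAlgHom_root _ _ _ hgζ
    obtain ⟨G₂, hG₂⟩ := AdjoinRoot.mk_surjective ((σ γ)⁻¹ : M)
    obtain ⟨a, b, hab⟩ := id hcop
    set G := G₁ * (b * f') + G₂ * (a * (f : F[X]))
    have hGf : (f : F[X]) ∣ G - G₁ := ⟨a * (G₂ - G₁), by linear_combination G₁ * hab⟩
    have hGg : f' ∣ G - G₂ := ⟨b * (G₁ - G₂), by linear_combination G₂ * hab⟩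
    have hGζ : aeval ζ G = γ := by
      rw [← sub_add_cancel G G₁, map_add, (dvd_iff_aeval_root _).1 hGf, zero_add, hG₁ζ]
    have hGη : aeval η G = (σ γ)⁻¹ := by
      rw [← sub_add_cancel G G₂, map_add, (dvd_iff_aeval_root _).1 hGg, zero_add, ← hG₂,
        AdjoinRoot.aeval_eq]
    have hGη' : aeval (η ^ (r - 1)) G = σ γ := by rw [← hσ, aeval_algHom_apply, hGζ]
    have hγ0 : (σ (γ : L)) ≠ 0 := (map_ne_zero σ.toRingHom).2 γ.ne_zero
    have hmulη : aeval (η ^ (r - 1)) G * aeval η G = 1 := by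
      rw [hGη', hGη, mul_inv_cancel₀ hγ0]
    have hmulζ : aeval (ζ ^ (r - 1)) G * aeval ζ G = 1 := by
      have h := congrArg σ' hmulη
      rw [map_mul, map_one, ← aeval_algHom_apply, ← aeval_algHom_apply, map_pow, hσ', ← pow_mul] at h
      rw [show ζ ^ ((r - 1) * (r - 1)) = ζ by
        obtain ⟨c, rfl⟩ : ∃ c, r = c + 2 := ⟨r - 2, by have := hr.two_le; omega⟩
        rw [show (c + 2 - 1) * (c + 2 - 1) = (c + 2) * c + 1 by
          rw [show c + 2 - 1 = c + 1 by omega]; ring, pow_succ, pow_mul, hζr, one_pow, one_mul]] at h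
      rwa [mul_comm]
    have hrdvd : r ∣ q ^ i - 1 := by
      have h1 : ((q ^ i : ℕ) : ZMod r) = ((1 : ℕ) : ZMod r) := by
        rw [Nat.cast_pow, hi, pow_orderOf_eq_one, Nat.cast_one]
      exact (Nat.modEq_iff_dvd' (Nat.one_le_pow _ _ Fintype.card_pos)).1
        ((ZMod.natCast_eq_natCast_iff _ _ _).1 h1).symm
    have hdeg : ((f : F[X]) * f').natDegree = 2 * i := by
      rw [natDegree_mul (Φ.irr f).ne_zero (Φ.irr (Φ.tau f)).ne_zero, Φ.deg f, Φ.deg (Φ.tau f)]
      omega
    refine block_of hr.pos hT hQT h2 ((f : F[X]) * f') G (v + w) i (q ^ i - 1) hi0 (Or.inr rfl) ?_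
      hdeg (mul_ne_zero (Φ.irr f).ne_zero (Φ.irr (Φ.tau f)).ne_zero) ?_ ?_ ?_ ?_ ?_ ?_
    · have h3 : 3 ≤ q ^ i - 1 := by
        have hpos : 0 < q ^ i - 1 := Nat.sub_pos_of_lt (Nat.one_lt_pow hi0.ne' hq1)
        have := Nat.le_of_dvd hpos hrdvd
        have := hr.two_le
        omega
      have : (q ^ i - 1) % 2 = 0 := by
        have hp : (q ^ i) % 2 = 1 := Nat.odd_iff.1 ((Nat.odd_iff.2 hqodd).pow)
        omega
      omega
    · rw [map_add, mul_comm (f : F[X]), mul_apply', hv, map_zero, zero_add, mul_comm f', mul_apply', hw,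
        map_zero]
    · intro g hg
      exact IsCoprime.mul_dvd hcop (hsplit g hg).1 (hsplit g hg).2
    · intro g hg
      by_contra hne0
      have hcomp : ∀ (z z' : V) (h : F[X]) (e : Φ.s), aeval T (e : F[X]) z = 0 →
          aeval T (Φ.tau e : F[X]) z' = 0 → polar Q z z' ≠ 0 → ¬ (Φ.tau e : F[X]) ∣ g →
          (∀ h : F[X], polar Q (aeval T g (z + z')) (aeval T h (z + z')) = 0) → False := by
        intro z z' h e hz hz' hzz hnd hperp
        obtain ⟨a', b', hab'⟩ := (Φ.irr (Φ.tau e)).coprime_iff_not_dvd.2 hnd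
        obtain ⟨a'', b'', hab''⟩ : IsCoprime (e : F[X]) (Φ.tau e : F[X]) :=
          Φ.cop e (Finset.mem_insert_of_mem e.2) _ (Finset.mem_insert_of_mem (Φ.tau e).2)
            fun h => Φ.tau_odd ho e (Subtype.ext h.symm)
        -- recover `z` from the sum
        have hz1 : aeval T (b'' * (Φ.tau e : F[X])) (z + z') = z := by
          rw [map_add, mul_apply' b'' _ z', hz', map_zero, add_zero]
          have := LinearMap.congr_fun (congrArg (aeval T) hab'') z
          rwa [map_add, LinearMap.add_apply, mul_apply' a'', hz, map_zero, zero_add, map_one] at this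
        have hbz : aeval T b' (aeval T g z') = z' := by
          have := LinearMap.congr_fun (congrArg (aeval T) hab') z'
          rwa [map_add, LinearMap.add_apply, mul_apply' a', hz', map_zero, zero_add, mul_apply',
            map_one] at this
        have h0 := hperp (b'.comp (X ^ (r - 1)) * (b'' * (Φ.tau e : F[X])))
        rw [mul_apply', hz1, ← star_left hr.pos hT hQT, map_add, map_add, polar_add_left, hbz] at h0
        rw [polar_eq_zero_of_coprime hr.pos hT hQT (Φ.cop_tau e e fun e' => Φ.tau_odd ho e e'.symm)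
          (hker b' _ _ (hker g _ z hz)) hz, zero_add, polar_comm] at h0
        exact hzz h0
      by_cases hdg : f' ∣ g
      · have hdf : ¬ (f : F[X]) ∣ g := fun h => hne0 (by
          obtain ⟨c, hc⟩ := IsCoprime.mul_dvd hcop h hdg
          rw [hc, mul_comm ((f : F[X]) * f'), mul_apply', map_add, mul_comm (f : F[X]), mul_apply', hv,
            map_zero, zero_add, mul_comm f', mul_apply', hw, map_zero, map_zero])
        refine hcomp w v 0 (Φ.tau f) hw (by rw [Φ.tau_tau]; exact hv) (by rw [polar_comm]; exact hvw)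
          (by rw [Φ.tau_tau]; exact hdf) ?_
        rwa [add_comm]
      · exact hcomp v w 0 f hv hw hvw hdg hg
    · refine IsCoprime.mul_dvd hcop ?_ ?_ <;> rw [dvd_iff_aeval_root, map_sub, map_mul, map_one,
        aeval_comp, map_pow, aeval_X, sub_eq_zero]
      · exact hmulζ
      · exact hmulη
    · intro j hj
      refine IsCoprime.mul_dvd hcop ?_ ?_ <;> rw [dvd_iff_aeval_root, map_sub, map_pow, map_one, sub_eq_zero]
      · rw [show AdjoinRoot.root (f : F[X]) = ζ from rfl, hGζ, ← Units.val_pow_eq_pow_val,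
          orderOf_dvd_iff_pow_eq_one.1 (hγ.symm ▸ hj), Units.val_one]
      · rw [show AdjoinRoot.root f' = η from rfl, hGη, inv_pow, ← map_pow, ← Units.val_pow_eq_pow_val,
          orderOf_dvd_iff_pow_eq_one.1 (hγ.symm ▸ hj), Units.val_one, map_one, inv_one]
    · intro j hj
      refine IsCoprime.mul_right (coprime_of_not_root (Φ.irr f) ?_).symm
        (coprime_of_not_root (Φ.irr (Φ.tau f)) ?_).symm <;>
        rw [map_sub, map_pow, map_one, sub_ne_zero]
      · rw [show AdjoinRoot.root (f : F[X]) = ζ from rfl, hGζ, ← Units.val_pow_eq_pow_val]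
        exact fun h => hj (hγ ▸ orderOf_dvd_of_pow_eq_one (Units.ext h))
      · rw [show AdjoinRoot.root f' = η from rfl, hGη, inv_pow, inv_ne_one, ← map_pow]
        intro h
        refine hj (hγ ▸ orderOf_dvd_of_pow_eq_one (Units.ext ?_))
        exact σ.toRingHom.injective (by simpa using h)

end Cfsg.Agent.SimFusion
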