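import Mathlib
import Cfsg.Agent.Classical.OrthFinal
import Cfsg.Agent.OrthGen.Spinor
import Cfsg.Agent.GraphForms.Count

/-!
Maps whose square is a scalar, multiplying a quadratic form by a scalar.
-/

set_option autoImplicit false
set_option linter.all false

namespace Cfsg.Agent.SimFusion

open Module QuadraticMap

open Cfsg.Agent.Classical (BNondeg)

variable {F : Type*} [Field F] {V : Type*} [AddCommGroup V] [Module F V] [FiniteDimensional F V]
  {Q : QuadraticForm F V} {G : Module.End F V} {c μ : F} {n : ℕ}

theorem polar_sim (hQG : ∀ v, Q (G v) = μ * Q v) (x y : V) :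
    polar Q (G x) (G y) = μ * polar Q x y := by
  simp only [polar, ← map_add, hQG]; ring

/-- `G` is self-adjoint or skew-adjoint. -/
theorem adj_of_sq (hc : c ≠ 0) (hG : ∀ v, G (G v) = c • v) (hQG : ∀ v, Q (G v) = μ * Q v)
    (x y : V) : c * polar Q (G x) y = μ * polar Q x (G y) := by
  calc c * polar Q (G x) y = polar Q (G x) (c • y) := by rw [polar_smul_right, smul_eq_mul]
    _ = polar Q (G x) (G (G y)) := by rw [hG]
    _ = _ := polar_sim hQG _ _

theorem det_ne_zero_of_sq (hc : c ≠ 0) (hG : ∀ v, G (G v) = c • v) : LinearMap.det G ≠ 0 := by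
  intro h
  obtain ⟨v, hv, hv0⟩ := Submodule.exists_mem_ne_zero_of_ne_bot
    (LinearMap.bot_lt_ker_of_det_eq_zero h).ne'
  have := hG v
  rw [LinearMap.mem_ker.1 hv, map_zero] at this
  exact hv0 ((smul_eq_zero.1 this.symm).resolve_left hc)

/-- A skew-adjoint one has the determinant of a symplectic similitude. -/
theorem det_of_skew (h2 : (2 : F) ≠ 0) (hB : BNondeg Q) (hc : c ≠ 0) (hG : ∀ v, G (G v) = c • v)
    (hQG : ∀ v, Q (G v) = μ * Q v) (hμc : μ = -c) (hn : finrank F V = 2 * n) :
    LinearMap.det G = μ ^ n := by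
  classical
  let b := Module.finBasis F V
  let B : LinearMap.BilinForm F V := polarBilin Q
  let H : LinearMap.BilinForm F V := B.compl₁₂ G LinearMap.id
  have hH : ∀ u v, H u v = polar Q (G u) v := fun u v => rfl
  have hskew : ∀ x y, polar Q (G x) y = -polar Q x (G y) := fun x y => mul_left_cancel₀ hc (by
    rw [adj_of_sq hc hG hQG, hμc]; ring)
  have hHnd : ∀ u, (∀ v, H u v = 0) → u = 0 := fun u hu => by
    have h0 := hB (G u) hu
    have := hG u
    rw [h0, map_zero] at this
    exact (smul_eq_zero.1 this.symm).resolve_left hc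
  set A := LinearMap.BilinForm.toMatrix b H with hA
  have halt : GraphForms.IsAltMat A := fun v => by
    have h := LinearMap.BilinForm.apply_eq_dotProduct_toMatrix_mulVec b H (b.equivFun.symm v) (b.equivFun.symm v)
    rw [← hA] at h
    have e : ⇑(b.repr (b.equivFun.symm v)) = v := b.equivFun.apply_symm_apply v
    rw [e] at h
    rw [← h, hH]
    set x := b.equivFun.symm v
    have h2' := hskew x x
    rw [polar_comm Q x (G x)] at h2'
    exact (mul_eq_zero.1 (show (2 : F) * polar Q (G x) x = 0 by linear_combination h2')).resolve_left h2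
  have hdet : A.det ≠ 0 := by
    refine Matrix.Nondegenerate.det_ne_zero ((LinearMap.BilinForm.nondegenerate_toMatrix_iff b).2 ?_)
    refine ⟨hHnd, fun v hv => hHnd v fun u => ?_⟩
    have := hv u
    rw [hH] at this ⊢
    rw [hskew, polar_comm, this, neg_zero]
  set M := LinearMap.toMatrix b b G with hM
  have hMdet : M.det = LinearMap.det G := LinearMap.det_toMatrix b G
  have hμ : μ ≠ 0 := hμc ▸ neg_ne_zero.2 hc
  have hsim : M.transpose * A * M = μ • A := by
    rw [hM, hA, ← LinearMap.BilinForm.toMatrix_comp, ← map_smul]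
    congr 1
    refine LinearMap.ext fun u => LinearMap.ext fun v => ?_
    rw [LinearMap.BilinForm.comp_apply, hH, LinearMap.smul_apply, LinearMap.smul_apply, hH,
      polar_sim hQG, smul_eq_mul]
  rw [← hMdet]
  exact (GraphForms.alt_det halt hdet (m := n) (by rw [Fintype.card_fin, hn])).1
    (Matrix.GeneralLinearGroup.mkOfDetNeZero M (hMdet ▸ det_ne_zero_of_sq hc hG)) μ hμ hsim

/-- The determinant when the square is a non-square scalar. -/
theorem det_of_nonsquare (hc : ¬ IsSquare c) (hG : ∀ v, G (G v) = c • v)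
    (hn : finrank F V = 2 * n) : LinearMap.det G = (-c) ^ n := by
  classical
  let b := Module.finBasis F V
  set N := Fintype.card (Fin (finrank F V))
  have hN : N = 2 * n := by simp [N, hn]
  set M := LinearMap.toMatrix b b G with hM
  have hMM : M * M = c • (1 : Matrix _ _ F) := by
    rw [hM, ← LinearMap.toMatrix_mul, ← LinearMap.toMatrix_one b, ← map_smul]
    congr 1
    exact LinearMap.ext hG
  open Polynomial in
  have hprod : M.charpoly * (-M).charpoly = (X ^ 2 - C c) ^ N := by
    rw [Matrix.charpoly, Matrix.charpoly, ← Matrix.det_mul, Matrix.charmatrix, Matrix.charmatrix,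
      map_neg, sub_neg_eq_add]
    have hcomm : Commute ((Matrix.scalar (Fin (finrank F V))) (X : F[X])) (C.mapMatrix M) :=
      Matrix.scalar_commute _ (fun r => Commute.all _ _) _
    rw [← hcomm.mul_self_sub_mul_self_eq', ← map_mul (C.mapMatrix) M M, hMM]
    have e : (Matrix.scalar (Fin (finrank F V))) (X : F[X]) * (Matrix.scalar (Fin (finrank F V))) (X : F[X])
        - C.mapMatrix (c • (1 : Matrix (Fin (finrank F V)) (Fin (finrank F V)) F)) =
        (X ^ 2 - C c) • (1 : Matrix (Fin (finrank F V)) (Fin (finrank F V)) F[X]) := by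
      ext i j
      by_cases h : i = j
      · subst h; simp [Matrix.scalar_apply, _root_.sq]
      · simp [Matrix.scalar_apply, h]
    rw [e, Matrix.det_smul, Matrix.det_one, mul_one]
  open Polynomial in
  have hirr : Irreducible (X ^ 2 - C c : F[X]) :=
    X_pow_sub_C_irreducible_of_prime Nat.prime_two fun b hb => hc ⟨b, by rw [← hb, _root_.sq]⟩
  open Polynomial in
  obtain ⟨j, -, hj⟩ := (dvd_prime_pow hirr.prime N).1 (Dvd.intro _ hprod)
  open Polynomial in
  have heq : M.charpoly = (X ^ 2 - C c) ^ j :=
    eq_of_monic_of_associated M.charpoly_monic ((monic_X_pow_sub_C c two_ne_zero).pow j) hj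
  have hdeg := congrArg Polynomial.natDegree heq
  rw [Matrix.charpoly_natDegree_eq_dim, Polynomial.natDegree_pow, Polynomial.natDegree_X_pow_sub_C] at hdeg
  obtain rfl : j = n := by
    simp only [Fintype.card_fin, hn] at hdeg; omega
  rw [← LinearMap.det_toMatrix b, ← hM, Matrix.det_eq_sign_charpoly_coeff, heq,
    Polynomial.coeff_zero_eq_eval_zero]
  simp [Fintype.card_fin, hn, pow_mul]

/-- In the non-square case some non-singular vector is orthogonal to its image. -/
theorem exists_orth_image [Finite F] (h2 : (2 : F) ≠ 0) (hB : BNondeg Q) (hc : ¬ IsSquare c)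
    (hG : ∀ v, G (G v) = c • v) (hQG : ∀ v, Q (G v) = c * Q v) (hn : 4 ≤ finrank F V) :
    ∃ v, Q v ≠ 0 ∧ polar Q v (G v) = 0 := by
  have hc0 : c ≠ 0 := fun h => hc (h ▸ IsSquare.zero)
  have hself : ∀ x y, polar Q (G x) y = polar Q x (G y) := fun x y =>
    mul_left_cancel₀ hc0 (adj_of_sq hc0 hG hQG x y)
  have hQ2 : ∀ x, polar Q x x = 2 * Q x := fun x => by
    rw [polar_self, nsmul_eq_mul, Nat.cast_ofNat]
  -- a common zero leads to a solution
  have fromZero : ∀ u, u ≠ 0 → Q u = 0 → polar Q u (G u) = 0 → ∃ v, Q v ≠ 0 ∧ polar Q v (G v) = 0 := by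
    intro u hu0 hu hu'
    obtain ⟨y, hy⟩ : ∃ y, polar Q u y ≠ 0 := by
      by_contra h; push Not at h; exact hu0 (hB u h)
    set pp := polar Q u y
    set qq := polar Q (G u) y
    have hdet : qq * qq - c * (pp * pp) ≠ 0 := fun h => hc ⟨qq / pp, by field_simp; linear_combination -h⟩
    obtain ⟨t, s, h1, h3⟩ : ∃ t s, Q y + t * pp + s * qq = 1 ∧
        polar Q y (G y) + 2 * t * qq + 2 * s * c * pp = 0 := by
      have hE := mul_inv_cancel₀ (mul_ne_zero h2 hdet)
      refine ⟨(-(polar Q y (G y)) * qq - 2 * (1 - Q y) * c * pp) * (2 * (qq * qq - c * (pp * pp)))⁻¹,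
        ((1 - Q y) * qq * 2 + polar Q y (G y) * pp) * (2 * (qq * qq - c * (pp * pp)))⁻¹, ?_, ?_⟩
      · linear_combination (1 - Q y) * hE
      · linear_combination (-(polar Q y (G y))) * hE
    refine ⟨y + (t • u + s • G u), ?_, ?_⟩
    · have : Q (y + (t • u + s • G u)) = 1 := by
        rw [QuadraticMap.map_add Q, QuadraticMap.map_add Q (t • u), QuadraticMap.map_smul, QuadraticMap.map_smul,
          hQG, hu, polar_smul_left, polar_smul_right, hu', polar_add_right, polar_smul_right,
          polar_smul_right, polar_comm Q y u, polar_comm Q y (G u)]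
        simp only [smul_eq_mul, mul_zero, add_zero]
        linear_combination h1
      rw [this]; exact one_ne_zero
    · rw [map_add, map_add, map_smul, map_smul, hG]
      simp only [polar_add_left, polar_add_right, polar_smul_left, polar_smul_right, smul_eq_mul]
      simp only [hu', hQ2, hQG, hu, show polar Q (G u) u = 0 from (polar_comm Q (G u) u).trans hu',
        show polar Q y u = pp from polar_comm Q y u,
        show polar Q y (G u) = qq from polar_comm Q y (G u),
        show polar Q u (G y) = qq from (hself u y).symm,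
        show polar Q (G u) (G y) = c * pp from polar_sim hQG u y]
      linear_combination h3
  obtain ⟨v, hv⟩ : ∃ v, Q v ≠ 0 := by
    by_contra h
    push Not at h
    have hV : ∃ v : V, v ≠ 0 := by
      by_contra h0; push Not at h0
      have : Subsingleton V := ⟨fun a b => by rw [h0 a, h0 b]⟩
      rw [Module.finrank_zero_of_subsingleton] at hn; omega
    obtain ⟨v, hv0⟩ := hV
    exact hv0 (hB v fun y => by simp [polar, h])
  by_cases hb : polar Q v (G v) = 0
  · exact ⟨v, hv, hb⟩
  -- the complement of the plane of `v`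
  set S : Submodule F V := Submodule.span F {v, G v}
  set P := OrthGen.perpSub Q S
  have hP : ∀ z, z ∈ P ↔ ∀ s ∈ S, polar Q s z = 0 := fun z => Iff.rfl
  have hdim : 2 ≤ finrank F P := by
    have h1 : finrank F P = finrank F V - finrank F S := OrthGen.finrank_orthogonal_polar hB S
    have h4 : finrank F S ≤ 2 := by
      classical
      refine (finrank_span_le_card _).trans ?_
      rw [Set.toFinset_card]
      simpa using Finset.card_le_two (a := v) (b := G v)
    omega
  have hPG : ∀ z ∈ P, G z ∈ P := fun z hz => (hP _).2 fun s hs => by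
    rw [← hself]
    refine (hP _).1 hz _ ?_
    obtain ⟨a, b, rfl⟩ := Submodule.mem_span_pair.1 hs
    rw [map_add, map_smul, map_smul, hG, smul_smul]
    exact Submodule.mem_span_pair.2 ⟨b * c, a, add_comm _ _⟩
  have hdis : ∀ z ∈ P, z ∈ S → z = 0 := fun z hz hzS => by
    obtain ⟨a, b, rfl⟩ := Submodule.mem_span_pair.1 hzS
    have h1 := (hP _).1 hz v (Submodule.subset_span (Set.mem_insert _ _))
    have h3 := (hP _).1 hz (G v) (Submodule.subset_span (Set.mem_insert_of_mem _ rfl))
    rw [polar_add_right, polar_smul_right, polar_smul_right, hQ2, smul_eq_mul, smul_eq_mul] at h1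
    rw [polar_add_right, polar_smul_right, polar_smul_right, hQ2, hQG, polar_comm Q (G v) v,
      smul_eq_mul, smul_eq_mul] at h3
    set B := polar Q v (G v)
    have hb0 : b = 0 := by
      by_contra hb0
      refine hc ⟨B / (2 * Q v), ?_⟩
      field_simp
      have : b * (c * (2 * Q v) * (2 * Q v) - B * B) = 0 := by
        linear_combination (2 * Q v) * h3 - B * h1
      linear_combination (mul_eq_zero.1 this).resolve_left hb0
    subst hb0
    have : a = 0 := by
      simp only [zero_mul, add_zero] at h3
      exact (mul_eq_zero.1 h3).resolve_right hb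
    rw [this]; simp
  let B' : LinearMap.BilinForm F P :=
    (polarBilin Q).compl₁₂ (G ∘ₗ P.subtype) P.subtype
  have hB' : ∀ x : P, B'.toQuadraticMap x = polar Q (G x) x := fun x => rfl
  obtain ⟨w, hw⟩ := OrthGen.exists_value (Q := B'.toQuadraticMap) (fun x hx => by
    have hperp : ∀ y : P, polar Q (G x) y = 0 := fun y => by
      have h := hx y
      simp only [LinearMap.BilinMap.polar_toQuadraticMap] at h
      have h5 : polar Q (G x) (y : V) + polar Q (G y) (x : V) = 0 := h
      rw [hself (y : V), polar_comm Q (y : V)] at h5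
      exact (mul_eq_zero.1 (show (2 : F) * polar Q (G x) y = 0 by linear_combination h5)).resolve_left h2
    have h0 : G (x : V) ∈ S := by
      have hS : OrthGen.perpSub Q P = S :=
        LinearMap.BilinForm.orthogonal_orthogonal
          ⟨fun a ha => hB a ha, fun a ha => hB a fun y => (polar_comm Q a y).trans (ha y)⟩
          (fun a b hab => (polar_comm Q b a).trans hab) S
      rw [← hS]
      exact fun p hp => (polar_comm Q p (G x)).trans (hperp ⟨p, hp⟩)
    have hGx := hdis _ (hPG x x.2) h0
    have := hG (x : V)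
    rw [hGx, map_zero] at this
    exact Subtype.ext ((smul_eq_zero.1 this.symm).resolve_left hc0)) h2 hdim (- polar Q v (G v))
  rw [hB'] at hw
  have hwS : ∀ s ∈ S, polar Q s (w : V) = 0 := (hP _).1 w.2
  have hvw : polar Q v (w : V) = 0 := hwS v (Submodule.subset_span (Set.mem_insert _ _))
  have hgvw : polar Q (G v) (w : V) = 0 := hwS _ (Submodule.subset_span (Set.mem_insert_of_mem _ rfl))
  have hu' : polar Q (v + w) (G (v + w)) = 0 := by
    rw [map_add, polar_add_left, polar_add_right, polar_add_right, ← hself v (w : V), hgvw,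
      ← hself (w : V) (v : V), polar_comm Q (G (w : V)) v, ← hself v (w : V), hgvw,
      ← hself (w : V) (w : V), hw]
    ring
  by_cases hu : Q (v + w) = 0
  · refine fromZero _ (fun h0 => hv ?_) hu hu'
    have e : v = -(w : V) := eq_neg_of_add_eq_zero_left h0
    have : v = 0 := hdis v (e ▸ P.neg_mem w.2) (Submodule.subset_span (Set.mem_insert _ _))
    rw [this, QuadraticMap.map_zero]
  · exact ⟨_, hu, hu'⟩

/-- The eigenspaces when the square is a square scalar. -/
theorem eigen_data (h2 : (2 : F) ≠ 0) (hB : BNondeg Q) {d : F} (hd : d ≠ 0)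
    (hG : ∀ v, G (G v) = (d * d) • v) (hQG : ∀ v, Q (G v) = d * d * Q v) :
    let P := LinearMap.ker (G - d • LinearMap.id)
    let N := LinearMap.ker (G + d • LinearMap.id)
    finrank F P + finrank F N = finrank F V ∧
      LinearMap.det G = d ^ finrank F P * (-d) ^ finrank F N ∧
      (∀ x ∈ P, (∀ y ∈ P, polar Q x y = 0) → x = 0) ∧
      (∀ x ∈ N, (∀ y ∈ N, polar Q x y = 0) → x = 0) := by
  intro P N
  have hP : ∀ x, x ∈ P ↔ G x = d • x := fun x => by simp [P, sub_eq_zero]
  have hN : ∀ x, x ∈ N ↔ G x = -(d • x) := fun x => by simp [N, add_eq_zero_iff_eq_neg]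
  have hh : (2 * d : F) ≠ 0 := mul_ne_zero h2 hd
  have hsplit : ∀ x, (2 * d)⁻¹ • (d • x + G x) ∈ P ∧ (2 * d)⁻¹ • (d • x - G x) ∈ N ∧
      (2 * d)⁻¹ • (d • x + G x) + (2 * d)⁻¹ • (d • x - G x) = x := fun x => by
    refine ⟨(hP _).2 ?_, (hN _).2 ?_, ?_⟩
    · rw [map_smul, map_add, map_smul, hG, smul_comm d, ← smul_smul, smul_add d, add_comm]
    · rw [map_smul, map_sub, map_smul, hG, smul_comm d, ← smul_neg, ← smul_smul, smul_sub d, neg_sub]
    · rw [← smul_add, add_add_sub_cancel, ← two_smul F, smul_smul, smul_smul,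
        show (2 * d)⁻¹ * (2 : F) * d = 1 by field_simp, one_smul]
  have hc : IsCompl P N := by
    refine IsCompl.of_le ?_ ?_
    · intro x hx
      have h1 := (hP x).1 hx.1
      have h3 := (hN x).1 hx.2
      rw [h1, eq_neg_iff_add_eq_zero, ← two_smul F, smul_smul, smul_eq_zero] at h3
      exact h3.resolve_left hh
    · intro x _
      obtain ⟨ha, hb, hab⟩ := hsplit x
      exact hab ▸ Submodule.add_mem_sup ha hb
  have horth : ∀ x ∈ P, ∀ y ∈ N, polar Q x y = 0 := fun x hx y hy => by
    have h := polar_sim hQG x y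
    rw [(hP x).1 hx, (hN y).1 hy, polar_neg_right, polar_smul_left, polar_smul_right, smul_eq_mul,
      smul_eq_mul] at h
    refine (mul_eq_zero.1 (show (2 * (d * d)) * polar Q x y = 0 by linear_combination -h)).resolve_left ?_
    exact mul_ne_zero h2 (mul_ne_zero hd hd)
  refine ⟨Submodule.finrank_add_eq_of_isCompl hc, ?_, fun x hx h => hB x fun y => ?_,
    fun x hx h => hB x fun y => ?_⟩
  · set e := Submodule.prodEquivOfIsCompl P N hc
    have : G = (e : (P × N) →ₗ[F] V) ∘ₗ
        ((d • (LinearMap.id : P →ₗ[F] P)).prodMap ((-d) • (LinearMap.id : N →ₗ[F] N))) ∘ₗ (e.symm : V →ₗ[F] P × N) := by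
      refine LinearMap.ext fun v => ?_
      obtain ⟨⟨a, b⟩, rfl⟩ := e.surjective v
      simp only [LinearMap.comp_apply, LinearEquiv.coe_coe, LinearEquiv.symm_apply_apply]
      show G ((a : V) + b) = d • (a : V) + (-d) • (b : V)
      rw [map_add, (hP _).1 a.2, (hN _).1 b.2, neg_smul]
    conv_lhs => rw [this]
    rw [LinearMap.det_conj, LinearMap.det_prodMap, LinearMap.det_smul, LinearMap.det_smul,
      LinearMap.det_id, LinearMap.det_id, mul_one, mul_one]
  · obtain ⟨ha, hb, hab⟩ := hsplit y
    rw [← hab, polar_add_right, h _ ha, horth x hx _ hb, add_zero]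
  · obtain ⟨ha, hb, hab⟩ := hsplit y
    rw [← hab, polar_add_right, h _ hb, polar_comm, horth _ ha x hx, add_zero]

/-- Commuting or anticommuting similitudes with an involution of negative sign have square
multiplier when the half dimension is even. -/
theorem no_twisted_similitude (h2 : (2 : F) ≠ 0) (hB : BNondeg Q) {d : F} (hd : d ≠ 0)
    (hG : ∀ v, G (G v) = (d * d) • v) (hQG : ∀ v, Q (G v) = d * d * Q v)
    (hdet : LinearMap.det G ≠ (d * d) ^ n) (hn : finrank F V = 2 * n) (hev : Even n)
    {K : Module.End F V} {ν : F} (hν : ¬ IsSquare ν) (hK : Function.Injective K)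
    (hQK : ∀ v, Q (K v) = ν * Q v) {e : F} (he : e = 1 ∨ e = -1)
    (hKG : ∀ v, K (G v) = e • G (K v)) : False := by
  classical
  obtain ⟨hsum, hdG, hPn, -⟩ := eigen_data h2 hB hd hG hQG
  set P := LinearMap.ker (G - d • LinearMap.id)
  set N := LinearMap.ker (G + d • LinearMap.id)
  have hP : ∀ x, x ∈ P ↔ G x = d • x := fun x => by simp [P, sub_eq_zero]
  have hN : ∀ x, x ∈ N ↔ G x = -(d • x) := fun x => by simp [N, add_eq_zero_iff_eq_neg]
  have hNodd : Odd (finrank F N) := by
    rw [← Nat.not_even_iff_odd]
    intro hev'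
    refine hdet ?_
    rw [hdG, hev'.neg_pow, ← pow_add, hsum, hn, pow_mul, pow_two]
  rcases he with rfl | rfl
  · have hKP : ∀ x ∈ P, K x ∈ P := fun x hx => by
      rw [hP]
      have h := hKG x
      rw [(hP x).1 hx, map_smul, one_smul] at h
      exact h.symm
    let k0 : P →ₗ[F] P := K.restrict hKP
    let b := Module.finBasis F P
    set QP := Q.comp P.subtype
    set A := LinearMap.BilinForm.toMatrix b (polarBilin QP)
    have hA : A.det ≠ 0 := by
      refine Matrix.Nondegenerate.det_ne_zero ((LinearMap.BilinForm.nondegenerate_toMatrix_iff b).2 ?_)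
      have hz : ∀ x : P, (∀ y : P, polar QP x y = 0) → x = 0 := fun x hx =>
        Subtype.ext (hPn x x.2 fun y hy => by simpa [QP, polar] using hx ⟨y, hy⟩)
      exact ⟨hz, fun x hx => hz x fun y => (polar_comm _ x y).trans (hx y)⟩
    set M := LinearMap.toMatrix b b k0
    have hM : M.transpose * A * M = ν • A := by
      rw [← LinearMap.BilinForm.toMatrix_comp, ← map_smul]
      congr 1
      refine LinearMap.ext fun u => LinearMap.ext fun v => ?_
      rw [LinearMap.BilinForm.comp_apply, LinearMap.smul_apply, LinearMap.smul_apply, smul_eq_mul]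
      show polar QP (k0 u) (k0 v) = ν * polar QP u v
      simp only [QP, polar, QuadraticMap.comp_apply, Submodule.subtype_apply, Submodule.coe_add, k0,
        LinearMap.restrict_coe_apply, ← map_add, hQK]
      ring
    have h := congrArg Matrix.det hM
    rw [Matrix.det_mul, Matrix.det_mul, Matrix.det_transpose, Matrix.det_smul, Fintype.card_fin] at h
    have hsq : M.det * M.det = ν ^ finrank F P := mul_right_cancel₀ hA (by linear_combination h)
    obtain ⟨j, hj⟩ : Odd (finrank F P) := by
      rw [Nat.odd_iff] at hNodd ⊢; omega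
    replace hsq : M.det * M.det = ν ^ (2 * j + 1) := hsq.trans (by rw [hj])
    rw [pow_succ] at hsq
    rcases eq_or_ne ν 0 with rfl | hν0
    · exact hν IsSquare.zero
    refine hν ⟨M.det / ν ^ j, ?_⟩
    field_simp
    rw [pow_mul, ← pow_mul, mul_comm 2 j, pow_mul] at hsq
    linear_combination -hsq
  · have hKP : ∀ x ∈ P, K x ∈ N := fun x hx => by
      rw [hN]
      have h := hKG x
      rw [(hP x).1 hx, map_smul, neg_smul, one_smul] at h
      exact neg_eq_iff_eq_neg.1 h.symm
    have hKN : ∀ x ∈ N, K x ∈ P := fun x hx => by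
      rw [hP]
      have h := hKG x
      rw [(hN x).1 hx, map_neg, map_smul, neg_smul, one_smul, neg_inj] at h
      exact h.symm
    have h1 : finrank F P ≤ finrank F N := LinearMap.finrank_le_finrank_of_injective
      (f := (K ∘ₗ P.subtype).codRestrict N fun x => hKP x x.2)
      fun x y h => Subtype.ext (hK (congrArg Subtype.val h))
    have h3 : finrank F N ≤ finrank F P := LinearMap.finrank_le_finrank_of_injective
      (f := (K ∘ₗ N.subtype).codRestrict P fun x => hKN x x.2)
      fun x y h => Subtype.ext (hK (congrArg Subtype.val h))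
    have : finrank F N = n := by omega
    exact Nat.not_even_iff_odd.2 hNodd (this ▸ hev)

end Cfsg.Agent.SimFusion
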