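import Cfsg.Agent.SimFusion.Block
import Cfsg.Agent.GraphForms.Count

/-!
An isometry of odd prime order commutes with an isometry of determinant one outside the commutator
subgroup; a similarity commuting with it has positive sign when it fixes no vector.
-/

set_option autoImplicit false
set_option linter.all false

namespace Cfsg.Agent.SimFusion

open Polynomial Module QuadraticMap

open Cfsg.Agent.Classical (OQ BNondeg levelSign levelPerm levelSign_eq levelPerm_apply hypExt binQF
  card_level_congr card_level_plus card_level_minus plusQF plusQF_apply minusQF minusQF_apply)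

variable {F : Type*} [Field F] [Fintype F] {V : Type*} [AddCommGroup V] [Module F V]
  [FiniteDimensional F V] {Q : QuadraticForm F V}

/-- All moved points with one period: the period divides their number. -/
theorem dvd_card_support {α : Type*} [Fintype α] [DecidableEq α] (σ : Equiv.Perm α) {N : ℕ}
    (hfree : ∀ x, σ x ≠ x → ∀ i : ℕ, (σ ^ i) x = x ↔ N ∣ i) : N ∣ σ.support.card := by
  rw [← Equiv.Perm.sum_cycleType]
  refine Multiset.dvd_sum fun k hk => ?_
  rw [Equiv.Perm.cycleType_def, Multiset.mem_map] at hk
  obtain ⟨c, hc, rfl⟩ := hk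
  rw [Finset.mem_val, Equiv.Perm.mem_cycleFactorsFinset_iff] at hc
  obtain ⟨hcyc, hσc⟩ := hc
  obtain ⟨x, hx⟩ := hcyc.nonempty_support
  have hσx : σ x ≠ x := by rw [← hσc x hx]; exact Equiv.Perm.mem_support.1 hx
  have hpow : ∀ i : ℕ, (σ ^ i) x = (c ^ i) x := by
    intro i
    induction i with
    | zero => rfl
    | succ i ih =>
      rw [pow_succ', pow_succ', Equiv.Perm.mul_apply, Equiv.Perm.mul_apply, ih]
      exact (hσc _ (Equiv.Perm.pow_apply_mem_support.2 hx)).symm
  simp only [Function.comp_apply]
  refine (hfree x hσx _).1 ?_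
  rw [hpow, ← hcyc.orderOf, pow_orderOf_eq_one]
  rfl

/-- The vectors of value one in a non-degenerate space of even dimension. -/
theorem card_level_cases {U : Type*} [AddCommGroup U] [Module F U] [FiniteDimensional F U]
    (R : QuadraticForm F U) (hR : BNondeg R) {k : ℕ} (hk : 0 < k) (hd : finrank F U = 2 * k) :
    Nat.card {v // R v = 1} = Fintype.card F ^ (k - 1) * (Fintype.card F ^ k - 1) ∨
      Nat.card {v // R v = 1} = Fintype.card F ^ (k - 1) * (Fintype.card F ^ k + 1) := by
  obtain ⟨l, h⟩ := Forms.exists_finite_witt_decomposition R (Forms.nonsingOn_top_of_nondegenerate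
    ⟨hR, fun y hy => hR y fun x => by rw [polar_comm]; exact hy x⟩)
  obtain ⟨k, rfl⟩ := Nat.exists_eq_add_of_le' hk
  rw [hd] at h
  rw [Nat.add_sub_cancel, ← Nat.card_eq_fintype_card]
  rcases h with ⟨hl, e, he⟩ | ⟨hl, -⟩ | ⟨hl, a, b, hab, e, he⟩
  · obtain rfl : l = k + 1 := by omega
    left
    rw [card_level_congr (R := plusQF (k + 1) F) e (fun v => by rw [plusQF_apply, he]),
      card_level_congr (R := hypExt (k + 1) (0 : QuadraticForm F (Fin 0 → F))) (Classical.plusEquiv (k + 1))
        (Classical.plusEquiv_spec (k + 1)), card_level_plus]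
  · omega
  · obtain rfl : l = k := by omega
    right
    rw [card_level_congr (R := minusQF l a b) e (fun v => by rw [minusQF_apply, he]),
      card_level_congr (R := hypExt l (binQF a b)) (Classical.minusEquiv l)
        (Classical.minusEquiv_spec l a b), card_level_minus (Classical.anisotropic_binQF hab)]

variable {r p : ℕ} [Fact p.Prime] [CharP F p]

theorem pow_apply (T : OQ Q) (n : ℕ) (v : V) : (T ^ n).1 v = ((T.1 : Module.End F V) ^ n) v := by
  induction n generalizing v with
  | zero => rfl
  | succ n ih =>
    rw [pow_succ, pow_succ, Module.End.mul_apply, ← ih]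
    rfl

/-- A commuting isometry of determinant one outside the commutator subgroup. -/
theorem exists_twisted_commute (h2 : (2 : F) ≠ 0) (hB : BNondeg Q) (hr : r.Prime) (hr2 : r ≠ 2)
    (hrp : r ≠ p) (T : OQ Q) (hT : T ^ r = 1) (hne : T ≠ 1) :
    ∃ u : OQ Q, RecogA.Twisted u ∧ Commute u T := by
  classical
  haveI : Finite V := Module.finite_of_finite F
  set Te : Module.End F V := (T.1 : Module.End F V) with hTe
  have hTr : Te ^ r = 1 := LinearMap.ext fun v => by rw [hTe, ← pow_apply, hT]; rfl
  have hQT : ∀ v, Q (Te v) = Q v := T.2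
  obtain ⟨β⟩ := exists_block h2 hB hr hr2 hrp hTr hQT (fun h => hne (Subtype.ext
    (LinearEquiv.toLinearMap_injective h)))
  set R := β.R
  set QR : QuadraticForm F R := Q.comp R.subtype
  set Ge : Module.End F V := aeval Te β.G
  have hGR : ∀ j : ℕ, ∀ v ∈ R, (Ge ^ j) v ∈ R := fun j v hv => by
    show ((aeval Te β.G) ^ j) v ∈ R
    rw [← map_pow]
    exact β.inv _ _ hv
  let g0 : Module.End F R := Ge.restrict fun v hv => β.inv β.G v hv
  have hinj : Function.Injective g0 := (injective_iff_map_eq_zero g0).2 fun v hv => by
    by_contra hv0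
    have hv1 : (v : V) ≠ 0 := fun h => hv0 (Subtype.ext h)
    have h0 : Ge (v : V) = 0 := congrArg Subtype.val hv
    have hN := (β.semireg β.N v v.2 hv1).2 dvd_rfl
    rw [← Nat.sub_add_cancel (show 1 ≤ β.N by have := β.N_ge; omega), pow_succ,
      Module.End.mul_apply] at hN
    exact hv1 (hN.symm.trans (by rw [show aeval Te β.G (v : V) = 0 from h0, map_zero]))
  let Y : OQ QR := ⟨LinearEquiv.ofBijective g0 ⟨hinj, LinearMap.surjective_of_injective hinj⟩,
    fun v => β.isom v v.2⟩
  have hBR : BNondeg QR := fun v hv => Subtype.ext (β.nondeg v v.2 fun w hw => by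
    have h := hv ⟨w, hw⟩
    simpa [QR, polar] using h)
  have hYpow : ∀ (j : ℕ) (v : R), (((Y ^ j).1 v : R) : V) = (Ge ^ j) (v : V) := by
    intro j
    induction j with
    | zero => intro v; rfl
    | succ j ih =>
      intro v
      rw [pow_succ, pow_succ, Module.End.mul_apply]
      exact ih (Y.1 v)
  have hfix : ∀ v : R, Y.1 v = v → v = 0 := fun v hv => by
    by_contra hv0
    have h := (β.semireg 1 v v.2 fun h => hv0 (Subtype.ext h)).1 (by
      rw [pow_one]; exact congrArg Subtype.val hv)
    have := β.N_ge
    rw [Nat.dvd_one] at h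
    omega
  have hY : RecogA.Twisted Y := by
    constructor
    · have hbot : Classical.fixSpace Y = ⊥ := by
        rw [eq_bot_iff]
        exact fun v hv => hfix v (Classical.mem_fixSpace.1 hv)
      rw [Classical.dickson, hbot, finrank_bot, zero_add, β.finrank_R]
      simp [pow_mul]
    · intro hmem
      haveI : Finite R := Module.finite_of_finite F
      haveI : Fintype {v // QR v = 1} := Fintype.ofFinite _
      have h1 := ((Forms.mem_commutator_OQ_iff hBR (RecogA.notExceptional_odd h2) Y).1 hmem).2 h2
      rw [levelSign_eq] at h1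
      set σ := levelPerm QR 1 Y with hσ
      have hne0 : ∀ v : {v // QR v = 1}, ((v.1 : R) : V) ≠ 0 := fun v h => by
        have := v.2
        rw [show v.1 = 0 from Subtype.ext h, QuadraticMap.map_zero] at this
        exact zero_ne_one this
      have hperiod : ∀ v, σ v ≠ v → ∀ j : ℕ, (σ ^ j) v = v ↔ β.N ∣ j := by
        intro v _ j
        rw [← β.semireg j _ v.1.2 (hne0 v), hσ, ← map_pow, Subtype.ext_iff, levelPerm_apply,
          Subtype.ext_iff, hYpow]
      have hsupp : σ.support = Finset.univ := Finset.eq_univ_of_forall fun v =>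
        Equiv.Perm.mem_support.2 fun h => by
          have := (hperiod v (fun _ => ?_) 1).1 (by rw [pow_one]; exact h)
          · have hN := β.N_ge
            rw [Nat.dvd_one] at this
            omega
          · exact hne0 v (congrArg Subtype.val (hfix v.1 (congrArg Subtype.val h)))
      have hL := card_level_cases QR hBR β.k_pos β.finrank_R
      have hqo : Odd (Fintype.card F) := Nat.odd_iff.2 (FiniteField.odd_card_of_char_ne_two fun h => h2 (by
        have := ringChar.charP F
        rw [h] at this
        exact CharTwo.two_eq_zero))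
      obtain ⟨k, hk⟩ : ∃ k, k = β.k := ⟨_, rfl⟩
      rw [← hk] at hL
      have hNc := β.N_cases
      rw [← hk] at hNc
      set q := Fintype.card F
      have hpos : 1 ≤ q ^ k := Nat.one_le_pow _ _ Fintype.card_pos
      have hqk : q ^ k % 2 = 1 := Nat.odd_iff.1 hqo.pow
      have heven : Even β.N := by
        rw [Nat.even_iff]; rcases hNc with h | h <;> omega
      -- the orbits have length `N`, which pins down the number of vectors
      have hcard : Nat.card {v // QR v = 1} = β.N * q ^ (k - 1) := by
        have hdvd : β.N ∣ Nat.card {v // QR v = 1} := by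
          have h2cyc := dvd_card_support σ hperiod
          rwa [hsupp, Finset.card_univ, ← Nat.card_eq_fintype_card] at h2cyc
        have hcop : Nat.Coprime β.N (q ^ (k - 1)) := by
          refine Nat.Coprime.pow_right _ ?_
          have hdq : q ∣ q ^ k := dvd_pow_self q (hk ▸ β.k_pos.ne')
          rcases hNc with h | h <;> rw [h]
          · obtain ⟨c, hc⟩ := hdq
            rw [hc, add_comm, Nat.coprime_add_mul_left_left]
            exact Nat.coprime_one_left q
          · obtain ⟨c, hc⟩ := hdq
            refine Nat.Coprime.symm (Nat.coprime_of_dvd' fun d _ hd hd' => ?_)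
            have h3 : d ∣ q ^ k := hd.trans (dvd_pow_self q (hk ▸ β.k_pos.ne'))
            have h4 := Nat.dvd_sub h3 hd'
            rwa [Nat.sub_sub_self hpos] at h4
        have hN := β.N_ge
        rcases hL with h | h <;> rw [h] at hdvd <;> rw [h]
        all_goals have h5 := hcop.dvd_of_dvd_mul_left hdvd
        · rcases hNc with h6 | h6
          · exfalso
            have := Nat.le_of_dvd (by omega) h5
            omega
          · rw [h6, mul_comm]
        · rcases hNc with h6 | h6
          · rw [h6, mul_comm]
          · exfalso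
            have h7 := Nat.dvd_sub h5 (dvd_refl β.N)
            have := Nat.le_of_dvd (by omega) h7
            omega
      rw [SpecBC.sign_semiregular σ heven (by have := β.N_ge; omega) hperiod (q ^ (k - 1)) (by
        rw [hsupp, Finset.card_univ, ← Nat.card_eq_fintype_card, hcard]) hqo.pow] at h1
      exact absurd h1 (by decide)
  -- the orthogonal complement
  set R' := OrthGen.perpSub Q R
  have hR'm : ∀ z, z ∈ R' ↔ ∀ s ∈ R, polar Q s z = 0 := fun z => Iff.rfl
  have hdis : Disjoint R R' := Submodule.disjoint_def.2 fun z hz hz' => β.nondeg z hz fun w hw => by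
    rw [polar_comm]; exact hz' w hw
  have hc : IsCompl R R' := by
    rw [Submodule.isCompl_iff_disjoint _ _ (le_of_eq ?_)]
    · exact hdis
    · have : finrank F R' = finrank F V - finrank F R := OrthGen.finrank_orthogonal_polar hB R
      have := Submodule.finrank_le R
      omega
  set E : (R × R') ≃ₗ[F] V := Submodule.prodEquivOfIsCompl R R' hc
  have hE : ∀ z, Q (E z) = QR z.1 + (Q.comp R'.subtype) z.2 := fun z => by
    show Q ((z.1 : V) + (z.2 : V)) = _
    rw [QuadraticMap.map_add Q, (hR'm _).1 z.2.2 z.1 z.1.2, add_zero]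
    rfl
  refine ⟨RecogA.sumHom E hE (Y, 1), RecogA.twisted_sumHom_left h2 hBR hB E hE hY, ?_⟩
  have hTR : ∀ v ∈ R, Te v ∈ R := fun v hv => by simpa using β.inv X v hv
  have hTR' : ∀ z ∈ R', Te z ∈ R' := fun z hz => (hR'm _).2 fun w hw => by
    have h1 := star_right hr.pos hTr hQT X w z
    rw [aeval_X] at h1
    rw [h1]
    exact (hR'm _).1 hz _ (β.inv _ _ hw)
  refine Subtype.ext (LinearEquiv.ext fun v => ?_)
  obtain ⟨⟨a, b⟩, rfl⟩ := E.surjective v
  have hTE : ∀ (a : R) (b : R'), T.1 (E (a, b)) = E (⟨Te a, hTR a a.2⟩, ⟨Te b, hTR' b b.2⟩) := fun a b => by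
    show Te ((a : V) + (b : V)) = _
    rw [map_add]
    rfl
  show (RecogA.sumHom E hE (Y, 1)).1 (T.1 (E (a, b))) = T.1 ((RecogA.sumHom E hE (Y, 1)).1 (E (a, b)))
  rw [hTE, RecogA.sumHom_apply, RecogA.sumHom_apply, hTE]
  congr 1
  refine Prod.ext (Subtype.ext ?_) rfl
  show aeval Te β.G (Te (a : V)) = Te (aeval Te β.G (a : V))
  have := comm_apply (T := Te) β.G X (a : V)
  simpa using this

/-- A similarity commuting with a fixed-point-free isometry of odd order has positive sign. -/
theorem det_of_commute {T C : Module.End F V} (hB : BNondeg Q) (hr : Odd r) (hT : T ^ r = 1)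
    (hfix : ∀ v, T v = v → v = 0) (hQT : ∀ v, Q (T v) = Q v) {μ : F} (hμ : μ ≠ 0)
    (hC : LinearMap.det C ≠ 0) (hQC : ∀ v, Q (C v) = μ * Q v) (hCT : C * T = T * C) {n : ℕ}
    (hn : finrank F V = 2 * n) : LinearMap.det C = μ ^ n := by
  classical
  let b := Module.finBasis F V
  let B : LinearMap.BilinForm F V := polarBilin Q
  let H : LinearMap.BilinForm F V := B.compl₁₂ T LinearMap.id - B.compl₁₂ LinearMap.id T
  have hH : ∀ u v, H u v = polar Q (T u) v - polar Q u (T v) := fun u v => rfl
  have hinjT : Function.Injective T := fun u v h => by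
    have := congrArg (T ^ (r - 1)) h
    rwa [← Module.End.mul_apply, ← Module.End.mul_apply, ← pow_succ,
      Nat.sub_add_cancel hr.pos, hT] at this
  have hsq : ∀ v, T (T v) = v → v = 0 := fun v hv => hfix v (by
    obtain ⟨j, hj⟩ := hr
    have h2 : ∀ i, (T ^ (2 * i)) v = v := fun i => by
      induction i with
      | zero => rfl
      | succ i ih => rw [mul_add, mul_one, pow_add, Module.End.mul_apply, pow_two, Module.End.mul_apply, hv, ih]
    have := LinearMap.congr_fun hT v
    rw [hj, pow_succ', Module.End.mul_apply, h2] at this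
    exact this)
  have hpol : ∀ u v, polar Q (T u) (T v) = polar Q u v := fun u v => by simp [polar, ← map_add, hQT]
  let D : Module.End F V := T * T - 1
  have hD : Function.Surjective D := LinearMap.surjective_of_injective
    ((injective_iff_map_eq_zero D).2 fun v hv => hsq v (sub_eq_zero.1 (by simpa [D] using hv)))
  have hHnd : ∀ u, (∀ v, H u v = 0) → u = 0 := fun u hu => hB u fun y => by
    obtain ⟨z, rfl⟩ := hD y
    have h := hu (T z)
    rw [hH, hpol] at h
    simp only [D, LinearMap.sub_apply, Module.End.mul_apply, Module.End.one_apply, polar_sub_right]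
    linear_combination -h
  set A := LinearMap.BilinForm.toMatrix b H with hA
  have halt : GraphForms.IsAltMat A := fun v => by
    have h := LinearMap.BilinForm.apply_eq_dotProduct_toMatrix_mulVec b H (b.equivFun.symm v) (b.equivFun.symm v)
    rw [← hA] at h
    have e : ⇑(b.repr (b.equivFun.symm v)) = v := b.equivFun.apply_symm_apply v
    rw [e] at h
    rw [← h, hH, polar_comm, sub_self]
  have hdet : A.det ≠ 0 := by
    refine Matrix.Nondegenerate.det_ne_zero ((LinearMap.BilinForm.nondegenerate_toMatrix_iff b).2 ?_)
    refine ⟨hHnd, fun v hv => hHnd v fun u => ?_⟩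
    have := hv u
    rw [hH] at this ⊢
    rw [polar_comm Q (T v), polar_comm Q v]
    linear_combination -this
  set M := LinearMap.toMatrix b b C with hM
  have hMdet : M.det = LinearMap.det C := LinearMap.det_toMatrix b C
  have hsim : M.transpose * A * M = μ • A := by
    rw [hM, hA, ← LinearMap.BilinForm.toMatrix_comp, ← map_smul]
    congr 1
    refine LinearMap.ext fun u => LinearMap.ext fun v => ?_
    rw [LinearMap.BilinForm.comp_apply, hH, LinearMap.smul_apply, LinearMap.smul_apply, hH,
      ← Module.End.mul_apply T C u, ← hCT, ← Module.End.mul_apply T C v, ← hCT, Module.End.mul_apply,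
      Module.End.mul_apply, smul_eq_mul]
    have hp : ∀ x y, polar Q (C x) (C y) = μ * polar Q x y := fun x y => by
      simp [polar, ← map_add, hQC]; ring
    rw [hp, hp]; ring
  rw [← hMdet]
  exact (GraphForms.alt_det halt hdet (m := n) (by rw [Fintype.card_fin, hn])).1
    (Matrix.GeneralLinearGroup.mkOfDetNeZero M (hMdet ▸ hC)) μ hμ hsim

end Cfsg.Agent.SimFusion
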